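import Cfsg.Agent.H6.Dickson
import Cfsg.Agent.H6.GenStructure
import Cfsg.Agent.H6.TraceOrders
import Cfsg.Agent.H98.SubfieldScalars

/-!
# Opposite unipotent groups in `PSL₂`

If a subgroup of `PSL₂` contains at least four upper unitriangular elements and a non-trivial lower one, then both
parameter sets are multiples of one subfield.
-/

set_option autoImplicit false
set_option linter.unusedSectionVars false

open Matrix MatrixGroups

namespace Cfsg.Agent.H5.SUThree

open Cfsg.Agent.H6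

variable {F : Type*} [Field F] [Fintype F]

/-- Quarter turn. -/
def weyl : SL(2, F) := sl2 0 1 (-1) 0 (by simp)

lemma weyl_conj (y : F) : (weyl : SL(2, F))⁻¹ * up y * weyl = lo (-y) := by
  apply sl2_ext <;> simp [weyl, up, lo, sl2_mul, sl2_inv_00, sl2_inv_01, sl2_inv_10, sl2_inv_11]

lemma alt_four_comm : ∀ x y : alternatingGroup (Fin 4), x ^ 2 = 1 → y ^ 2 = 1 → x * y = y * x := by
  decide

lemma alt_four_exp : ∀ x : alternatingGroup (Fin 4), x ^ 2 = 1 ∨ x ^ 3 = 1 := by decide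

set_option maxRecDepth 100000 in
lemma alt_five_exp : ∀ x : alternatingGroup (Fin 5), x ^ 2 = 1 ∨ x ^ 3 = 1 ∨ x ^ 5 = 1 := by decide +kernel

lemma pow_eq_one_of_iso {G M : Type*} [Group G] [Group M] {c : G} {H : Subgroup G}
    (e : cj c H ≃* M) {n : ℕ} {x : G} (hx : x ∈ H)
    (h : e ⟨c * x * c⁻¹, Subgroup.mem_map_of_mem _ hx⟩ ^ n = 1) : x ^ n = 1 := by
  rw [← map_pow, e.map_eq_one_iff] at h
  have h' : (c * x * c⁻¹) ^ n = 1 := congrArg Subtype.val h
  rwa [conj_pow, mul_inv_eq_one, mul_eq_left] at h'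

variable {H : Subgroup PSL(2, F)}

lemma tr_up_lo (x b : F) : tr (up x * lo b) = 2 + x * b := by
  simp [tr, up, lo, sl2_mul]; ring

lemma up_lo_ne_one {x b : F} (hb : b ≠ 0) : π (up x * lo b) ≠ 1 := fun e => hb (by
  simpa [up, lo, sl2_mul] using (π_eq_one_iff_isScal.1 e).2.1)

lemma not_commute_up_lo {x b : F} (hx : x ≠ 0) (hb : b ≠ 0) :
    π (up x) * π (lo b) ≠ π (lo b) * π (up x) := by
  rw [← map_mul, ← map_mul, Ne, π_eq_iff]
  rintro (e | e)
  · have := congrArg (fun z : SL(2, F) => z 0 0) e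
    simp [up, lo, sl2_mul, hx, hb] at this
  · have h01 := congrArg (fun z : SL(2, F) => z 0 1) e
    have h00 := congrArg (fun z : SL(2, F) => z 0 0) e
    simp [up, lo, sl2_mul, sl2_neg] at h01 h00
    have h2 : (2 : F) = 0 := (mul_eq_zero.1 (show 2 * x = 0 by linear_combination h01)).resolve_right hx
    exact mul_ne_zero hx hb (by linear_combination h00 - h2)

variable (p : ℕ) [Fact p.Prime] [CharP F p]

/-- The two possible shapes. -/
theorem pair_cases {x b : F} (hx : π (up x) ∈ H) (hb : π (lo b) ∈ H) (hx0 : x ≠ 0) (hb0 : b ≠ 0)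
    (h3 : 3 ≤ Nat.card (upSet H)) :
    (∃ c r k, Gen (cj c H) r k) ∨
      (p = 3 ∧ Nat.card (upSet H) = 3 ∧ ((x * b) ^ 3 = x * b ∨ (x * b) ^ 2 = -1)) := by
  classical
  obtain ⟨c, hc⟩ := exists_outcome p H
  have hp : p.Prime := Fact.out
  have hns : ∀ {z : PSL(2, F)}, ¬ IsSS z → ¬ IsSS (c * z * c⁻¹) := fun {z} hz h => hz (by
    simpa [mul_assoc] using isSS_conj (c := c⁻¹) h)
  have hu1 : π (up x) ≠ 1 := fun e => hx0 (π_up_eq_one_iff.1 e)
  have hl1 : π (lo b) ≠ 1 := fun e => hb0 (π_eq_one_iff_isScal.1 e).2.1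
  have huns : ¬ IsSS (π (up x)) := not_isSS_up x
  have hlns : ¬ IsSS (π (lo b)) := by rw [isSS_π]; simp [tr, lo]; norm_num
  have hou : orderOf (π (up x)) = p := orderOf_eq_of_not_isSS p hu1 huns
  have hol : orderOf (π (lo b)) = p := orderOf_eq_of_not_isSS p hl1 hlns
  have hpdvd : p ∣ Nat.card (cj c H) := by
    rw [card_cj, ← hou]; exact Subgroup.orderOf_dvd_natCard _ hx
  -- a second parameter
  obtain ⟨y, hy, hy0, hyx⟩ : ∃ y ∈ upSet H, y ≠ 0 ∧ y ≠ x := by
    by_contra hall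
    push Not at hall
    have hsub : (upSet H : Set F) ⊆ {0, x} := fun z hz => by
      by_cases hz0 : z = 0
      · exact Or.inl hz0
      · exact Or.inr (hall z hz hz0)
    have h := Nat.card_mono (Set.toFinite _) hsub
    rw [Nat.card_coe_set_eq, Nat.card_coe_set_eq] at h
    have h' := Set.ncard_insert_le (0 : F) {x}
    rw [Set.ncard_singleton] at h'
    have : Nat.card (upSet H) = (upSet H : Set F).ncard := Nat.card_coe_set_eq _
    omega
  obtain ⟨n, hn⟩ : ∃ n, Nat.card (upSet H) = p ^ n := by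
    have hP : IsPGroup p (Multiplicative (upSet H)) := fun g => ⟨1, by
      refine Multiplicative.toAdd.injective ?_
      rw [toAdd_pow, toAdd_one, pow_one]
      refine Subtype.ext ?_
      rw [AddSubgroup.coe_nsmul, AddSubgroup.coe_zero, nsmul_eq_mul, CharP.cast_eq_zero, zero_mul]⟩
    exact hP.exists_card_eq
  have hdvd : Nat.card (upSet H) ∣ Nat.card (cj c H) := by
    rw [card_cj, card_upSet]; exact Subgroup.card_dvd_of_le inf_le_right
  have hv : π (up x * lo b) ∈ H := by rw [map_mul]; exact mul_mem hx hb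
  have hw : π ((up x)⁻¹ * lo b) ∈ H := by rw [map_mul, map_inv]; exact mul_mem (inv_mem hx) hb
  have hw1 : π ((up x)⁻¹ * lo b) ≠ 1 := fun e => hb0 (by
    simpa [up, lo, sl2_mul, sl2_inv_10, sl2_inv_11] using (π_eq_one_iff_isScal.1 e).2.1)
  have htw : tr ((up x)⁻¹ * lo b) = 2 - x * b := by
    simp [tr, up, lo, sl2_mul, sl2_inv_00, sl2_inv_01, sl2_inv_10, sl2_inv_11]; ring
  cases hc with
  | triv h =>
    exfalso
    rw [card_cj, Subgroup.card_eq_one] at h
    exact hu1 (Subgroup.mem_bot.1 (h ▸ hx))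
  | dih h =>
    exfalso
    obtain ⟨g, ht, hle⟩ := h
    have hout : ∀ z ∈ upSet H, z ≠ 0 → c * π (up z) * c⁻¹ ∈ torDih g ∧ c * π (up z) * c⁻¹ ∉ tor g := by
      intro z hz hz0
      refine ⟨hle (Subgroup.mem_map_of_mem _ hz), fun hg => hns (not_isSS_up z)
        (isSS_of_mem_isTor ⟨g, ht, rfl⟩ hg fun e => hz0 (π_up_eq_one_iff.1 ?_))⟩
      simpa [mul_assoc] using congrArg (fun w => c⁻¹ * w * c) e
    obtain ⟨a1, a2⟩ := hout x hx hx0
    obtain ⟨hsq, -, i1⟩ := outside_torDih ht a1 a2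
    obtain ⟨b1, b2⟩ := hout y hy hy0
    obtain ⟨-, -, i2⟩ := outside_torDih ht b1 b2
    have hu2 : π (up x) * π (up x) = 1 := by
      simpa [mul_assoc] using congrArg (fun w => c⁻¹ * w * c) hsq
    have h2 : (2 : F) = 0 := by
      rw [← map_mul, ← up_add, π_up_eq_one_iff] at hu2
      exact (mul_eq_zero.1 (show 2 * x = 0 by linear_combination hu2)).resolve_right hx0
    have hxy : x + y ≠ 0 := fun e => hyx (by linear_combination e - x * h2)
    obtain ⟨c1, c2⟩ := hout (x + y) (add_mem hx hy) hxy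
    obtain ⟨-, -, i3⟩ := outside_torDih ht c1 c2
    have e : c * π (up (x + y)) * c⁻¹ = (c * π (up x) * c⁻¹) * (c * π (up y) * c⁻¹) := by
      rw [up_add, map_mul]; group
    have hg := self_mem_tor g
    have j1 := i1 _ (inv_mem hg)
    have j2 := i2 _ hg
    have j3 := i3 _ hg
    rw [inv_inv] at j1
    rw [e] at j3
    have hcomm : (c * π (up x) * c⁻¹) * (c * π (up y) * c⁻¹) * π g *
        ((c * π (up x) * c⁻¹) * (c * π (up y) * c⁻¹))⁻¹ = π g := by
      calc _ = (c * π (up x) * c⁻¹) * ((c * π (up y) * c⁻¹) * π g * (c * π (up y) * c⁻¹)⁻¹) *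
            (c * π (up x) * c⁻¹)⁻¹ := by group
        _ = π g := by rw [j2, j1]
    rw [hcomm] at j3
    have hsq' : π g ^ 2 = 1 := by rw [pow_two]; exact mul_eq_one_iff_eq_inv.mpr j3
    have ht0 := (tr_sq_of_pow fun e1 => ne_one_of_isSS (isSS_π.2 ht) e1).1 hsq'
    exact ht (by rw [ht0]; linear_combination (-2 : F) * h2)
  | bor h =>
    exfalso
    obtain ⟨d, hd⟩ := h
    rw [cj_cj] at hd
    have key : ∀ {z : PSL(2, F)}, z ∈ H → ¬ IsSS z → (d * c) * z * (d * c)⁻¹ ∈ Uinf F := by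
      intro z hz hzs
      have hb := hd (Subgroup.mem_map_of_mem (MulAut.conj (d * c)).toMonoidHom hz)
      refine (chiB_eq_one_iff ⟨_, hb⟩).1 (by_contra fun hne' => hzs ?_)
      simpa [mul_assoc] using isSS_conj (c := (d * c)⁻¹) (isSS_of_chiB hne')
    obtain ⟨a, ha⟩ := mem_Uinf.1 (key hx huns)
    obtain ⟨a', ha'⟩ := mem_Uinf.1 (key hb hlns)
    apply not_commute_up_lo hx0 hb0
    have hab : π (up a) * π (up a') = π (up a') * π (up a) := by
      rw [← map_mul, ← map_mul, ← up_add, ← up_add, add_comm]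
    rw [ha, ha'] at hab
    simpa [mul_assoc] using congrArg (fun z => (d * c)⁻¹ * z * (d * c)) hab
  | s4 h e hp' => exact absurd hpdvd hp'
  | gen h => obtain ⟨r, k, hG⟩ := h; exact Or.inl ⟨c, r, k, hG⟩
  | a4 h e =>
    obtain ⟨e⟩ := e
    right
    rw [h] at hdvd hpdvd
    rw [hn] at hdvd h3 ⊢
    have hp12 : p = 2 ∨ p = 3 := by
      have := Nat.le_of_dvd (by norm_num) hpdvd
      interval_cases p <;> norm_num at *
    rcases hp12 with rfl | rfl
    · exfalso
      refine not_commute_up_lo hx0 hb0 ?_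
      have hh := alt_four_comm (e ⟨_, Subgroup.mem_map_of_mem _ hx⟩) (e ⟨_, Subgroup.mem_map_of_mem _ hb⟩) ?_ ?_
      · rw [← map_mul, ← map_mul, e.injective.eq_iff, Subtype.ext_iff] at hh
        exact mul_right_cancel (b := c⁻¹) (by simpa [mul_assoc] using hh)
      · rw [← map_pow, e.map_eq_one_iff]
        refine Subtype.ext ?_
        change (c * π (up x) * c⁻¹) ^ 2 = 1
        rw [conj_pow, orderOf_dvd_iff_pow_eq_one.1 hou.dvd]; group
      · rw [← map_pow, e.map_eq_one_iff]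
        refine Subtype.ext ?_
        change (c * π (lo b) * c⁻¹) ^ 2 = 1
        rw [conj_pow, orderOf_dvd_iff_pow_eq_one.1 hol.dvd]; group
    · refine ⟨rfl, ?_, Or.inl ?_⟩
      · have hn' : n < 2 := by
          by_contra hlt
          have := Nat.le_of_dvd (by norm_num) ((pow_dvd_pow 3 (not_lt.1 hlt)).trans hdvd)
          have := (pow_dvd_pow 3 (not_lt.1 hlt)).trans hdvd
          norm_num at this
        interval_cases n <;> simp_all
      · have h30 : (3 : F) = 0 := by exact_mod_cast CharP.cast_eq_zero F 3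
        obtain ⟨t2, t3, -⟩ := tr_sq_of_pow (up_lo_ne_one (x := x) hb0)
        have : tr (up x * lo b) ^ 3 = tr (up x * lo b) := by
          rcases alt_four_exp (e ⟨c * π (up x * lo b) * c⁻¹, Subgroup.mem_map_of_mem _ hv⟩) with hh | hh
          · simp [t2 (pow_eq_one_of_iso e hv hh)]
          · rw [pow_succ, t3 (pow_eq_one_of_iso e hv hh), one_mul]
        rw [tr_up_lo] at this
        linear_combination this - (2 * (x * b) ^ 2 + 4 * (x * b) + 2) * h30
  | a5 h e h5 =>
    obtain ⟨e⟩ := e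
    right
    obtain rfl := h5 hpdvd
    rw [h] at hdvd
    rw [hn] at hdvd h3 ⊢
    have h30 : (3 : F) = 0 := by exact_mod_cast CharP.cast_eq_zero F 3
    refine ⟨rfl, ?_, ?_⟩
    · have hn' : n < 2 := by
        by_contra hlt
        have := (pow_dvd_pow 3 (not_lt.1 hlt)).trans hdvd
        norm_num at this
      interval_cases n <;> simp_all
    · have hsmall : ∀ g : SL(2, F), π g ∈ H → π g ≠ 1 →
          tr g ^ 3 = tr g ∨ (tr g ^ 2) ^ 2 + 1 = 0 := by
        intro g hg hg1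
        obtain ⟨t2, t3, t5⟩ := tr_sq_of_pow hg1
        rcases alt_five_exp (e ⟨c * π g * c⁻¹, Subgroup.mem_map_of_mem _ hg⟩) with hh | hh | hh
        · exact Or.inl (by simp [t2 (pow_eq_one_of_iso e hg hh)])
        · exact Or.inl (by rw [pow_succ, t3 (pow_eq_one_of_iso e hg hh), one_mul])
        · exact Or.inr (by linear_combination t5 (pow_eq_one_of_iso e hg hh) + tr g ^ 2 * h30)
      by_cases hl3 : (x * b) ^ 3 = x * b
      · exact Or.inl hl3
      right
      have hv4 : ((2 + x * b) ^ 2) ^ 2 + 1 = 0 := by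
        rw [← tr_up_lo]
        refine (hsmall _ hv (up_lo_ne_one hb0)).resolve_left fun h' => hl3 ?_
        rw [tr_up_lo] at h'
        linear_combination h' - (2 * (x * b) ^ 2 + 4 * (x * b) + 2) * h30
      have hw4 : ((2 - x * b) ^ 2) ^ 2 + 1 = 0 := by
        rw [← htw]
        refine (hsmall _ hw hw1).resolve_left fun h' => hl3 ?_
        rw [htw] at h'
        linear_combination (-1 : F) * h' + (2 * (x * b) ^ 2 - 4 * (x * b) + 2) * h30
      have hprod : ((2 + x * b) ^ 2 - (2 - x * b) ^ 2) * ((2 + x * b) ^ 2 + (2 - x * b) ^ 2) = 0 := by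
        linear_combination hv4 - hw4
      rcases mul_eq_zero.1 hprod with h' | h'
      · exact absurd (show x * b = 0 by linear_combination (-1 : F) * h' + 3 * (x * b) * h30)
          (mul_ne_zero hx0 hb0)
      · linear_combination (-1 : F) * h' + ((x * b) ^ 2 + 3) * h30

include p in
/-- In the subfield case the upper parameters are as many as the order of the subfield. -/
theorem card_upSet_of_gen {c : PSL(2, F)} {r k : ℕ} (hG : Gen (cj c H) r k) {x : F} (hx : π (up x) ∈ H)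
    (hx0 : x ≠ 0) : Nat.card (upSet H) = r := by
  obtain ⟨hU, hr, -⟩ := hG
  have hx1 : π (up x) ≠ 1 := fun e => hx0 (π_up_eq_one_iff.1 e)
  have hcl : cj c (Uinf F) ∈ cls (cj c H) := by
    refine mem_cls.2 ⟨c * π (up x) * c⁻¹, Subgroup.mem_map_of_mem _ hx, fun e => hx1 ?_, ?_⟩
    · simpa [mul_assoc] using congrArg (fun w => c⁻¹ * w * c) e
    · rw [mx_conj, mx_π, tor_up hx0]
  have huni : IsUni (cj c (Uinf F)) := ⟨c⁻¹, by rw [cj_cj, inv_mul_cancel, cj_one]⟩
  have horb := orb_eq_of_isUni p hcl hU huni isUni_Uinf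
  have hmem : cj c (Uinf F) ∈ orb (cj c H) (Uinf F) := horb ▸ self_mem_orb _
  rw [card_upSet, ← hr, ← mH_of_mem_orb hmem]
  have e : cj c (Uinf F) ⊓ cj c H = cj c (Uinf F ⊓ H) :=
    (Subgroup.map_inf _ _ _ (MulEquiv.injective _)).symm
  change _ = Nat.card ↥(cj c (Uinf F) ⊓ cj c H)
  rw [e, card_cj]; rfl

include p in
/-- Both parameter sets are multiples of one subfield. -/
theorem pair_field {x b : F} (hx : π (up x) ∈ H) (hb : π (lo b) ∈ H) (hx0 : x ≠ 0) (hb0 : b ≠ 0)
    (h3 : 3 ≤ Nat.card (upSet H))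
    (hex : Nat.card (upSet H) = 3 → (x * b) ^ 3 ≠ x * b ∧ (x * b) ^ 2 ≠ -1) :
    ∃ K : Subfield F, (∀ y, π (up y) ∈ H ↔ y * b ∈ K) ∧ ∀ d, π (lo d) ∈ H ↔ x * d ∈ K := by
  classical
  obtain ⟨c, r, k, hG⟩ | ⟨-, hc3, hl⟩ := pair_cases p hx hb hx0 hb0 h3
  swap
  · obtain ⟨e1, e2⟩ := hex hc3
    exact (hl.elim e1 e2).elim
  obtain ⟨K, hK, htr, -⟩ := gen_structure hG
  obtain ⟨d₀, rfl⟩ := π_surjective c
  have htrH : ∀ g : SL(2, F), π g ∈ H → tr g ^ 2 ∈ K := fun g hg => by
    rw [← tr_conj d₀ g]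
    refine htr _ ?_
    rw [map_mul, map_mul, map_inv]
    exact Subgroup.mem_map_of_mem _ hg
  have hmul : ∀ y d, π (up y) ∈ H → π (lo d) ∈ H → y * d ∈ K := by
    intro y d hy hd
    have h1 := htrH _ (show π (up y * lo d) ∈ H by rw [map_mul]; exact mul_mem hy hd)
    have h2 := htrH _ (show π (up (-y) * lo d) ∈ H by
      rw [map_mul]; exact mul_mem ((upSet H).neg_mem hy) hd)
    rw [tr_up_lo] at h1 h2
    by_cases hc : (2 : F) = 0
    · haveI : CharP F 2 := CharTwo.of_one_ne_zero_of_two_eq_zero one_ne_zero hc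
      haveI : Fact (Nat.Prime 2) := ⟨Nat.prime_two⟩
      refine H98.mem_subfield_of_pow_char 2 K ?_
      rw [hc, zero_add] at h1
      exact h1
    · have h8 : (8 : F) ≠ 0 := by
        rw [show (8 : F) = 2 ^ 3 by norm_num]; exact pow_ne_zero 3 hc
      have := K.div_mem (K.sub_mem h1 h2) (natCast_mem K 8)
      convert this using 1
      rw [eq_div_iff (by exact_mod_cast h8)]
      push_cast
      ring
  have hu := card_upSet_of_gen p hG hx hx0
  have hl : Nat.card (upSet (cj (π weyl) H)) = r := by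
    have hG' : Gen (cj (π d₀ * (π weyl)⁻¹) (cj (π weyl) H)) r k := by rwa [cj_cj, inv_mul_cancel_right]
    refine card_upSet_of_gen p hG' (x := -b) ?_ (neg_ne_zero.2 hb0)
    rw [mem_cj, ← map_inv, ← map_mul, ← map_mul, weyl_conj, neg_neg]
    exact hb
  have hup : ∀ y, π (up y) ∈ cj (π weyl) H ↔ π (lo (-y)) ∈ H := fun y => by
    rw [mem_cj, ← map_inv, ← map_mul, ← map_mul, weyl_conj]
  refine ⟨K, fun y => ⟨fun hy => hmul y b hy hb, fun hy => ?_⟩, fun d => ⟨fun hd => hmul x d hx hd, fun hd => ?_⟩⟩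
  · have hbij : Function.Bijective fun z : upSet H => (⟨z * b, hmul _ _ z.2 hb⟩ : K) := by
      refine Function.Injective.bijective_of_nat_card_le (fun z z' e => ?_) (le_of_eq (hK.trans hu.symm))
      exact Subtype.ext (mul_right_cancel₀ hb0 (congrArg Subtype.val e))
    obtain ⟨z, hz⟩ := hbij.2 ⟨y * b, hy⟩
    rw [← mul_right_cancel₀ hb0 (congrArg Subtype.val hz)]
    exact z.2
  · have hbij : Function.Bijective fun z : upSet (cj (π weyl) H) =>
        (⟨x * -z.1, hmul _ _ hx ((hup _).1 z.2)⟩ : K) := by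
      refine Function.Injective.bijective_of_nat_card_le (fun z z' e => ?_) (le_of_eq (hK.trans hl.symm))
      exact Subtype.ext (neg_injective (mul_left_cancel₀ hx0 (congrArg Subtype.val e)))
    obtain ⟨z, hz⟩ := hbij.2 ⟨x * d, hd⟩
    rw [← mul_left_cancel₀ hx0 (congrArg Subtype.val hz)]
    exact (hup _).1 z.2

end Cfsg.Agent.H5.SUThree
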