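import Cfsg.Agent.H98.USubOddMain
import Cfsg.Agent.H1.SUThree.Top
import Cfsg.Agent.H5.SUThree.PairSL

/-!
# Odd degree subfield subgroups of `SU₃`: rational frames and transvection parameters
-/

set_option autoImplicit false
set_option linter.unusedSectionVars false

namespace Cfsg.Agent.H5.SUThree

open scoped Matrix MatrixGroups
open Cfsg.Agent.H98 Cfsg.Agent.H98.Herm Cfsg.Agent.H1.SUThree

variable {F : Type*} [Field F] [Fintype F] {q : ℕ}

/-- The action of a plane group on a chosen plane, fixing the common kernel of the two functionals. -/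
def planeHom (C : Matrix (Fin 3) (Fin 2) F) (R : Matrix (Fin 2) (Fin 3) F) (hRC : R * C = 1) :
    SL(2, F) →* GL (Fin 3) F :=
  MonoidHom.toHomUnits
    { toFun := fun A => 1 + C * ((A : Matrix (Fin 2) (Fin 2) F) - 1) * R
      map_one' := by simp
      map_mul' := fun A B => by
        have h : ∀ X Y : Matrix (Fin 2) (Fin 2) F, C * X * R * (C * Y * R) = C * (X * Y) * R := fun X Y => by
          rw [Matrix.mul_assoc, ← Matrix.mul_assoc R, ← Matrix.mul_assoc R, hRC, Matrix.one_mul,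
            Matrix.mul_assoc C (X * Y), Matrix.mul_assoc C X, Matrix.mul_assoc X]
        rw [Matrix.add_mul, Matrix.mul_add, Matrix.mul_add, h, Matrix.SpecialLinearGroup.coe_mul,
          Matrix.one_mul, Matrix.one_mul, Matrix.mul_one, add_assoc, add_right_inj, ← Matrix.add_mul,
          ← Matrix.add_mul, ← Matrix.mul_add, ← Matrix.mul_add]
        congr 2
        noncomm_ring }

theorem planeHom_coe (C : Matrix (Fin 3) (Fin 2) F) (R : Matrix (Fin 2) (Fin 3) F) (hRC : R * C = 1) (A : SL(2, F)) :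
    (planeHom C R hRC A : Matrix (Fin 3) (Fin 3) F) = 1 + C * ((A : Matrix (Fin 2) (Fin 2) F) - 1) * R := rfl

local notation "Mat" => Matrix (Fin 3) (Fin 3) F

/-- An odd prime degree rational structure in dimension three. -/
structure OddRat3 (hF : Fintype.card F = q ^ 2) (F₀ : Subfield F) (r : ℕ) (P : GL (Fin 3) F) : Prop where
  prime : r.Prime
  odd : Odd r
  card : Fintype.card F = Nat.card F₀ ^ r
  rat : ∀ u v : Fin 3 → F, IsRatVec F₀ u → IsRatVec F₀ v → pullForm 3 q P u v ∈ F₀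

variable {hF : Fintype.card F = q ^ 2} {F₀ : Subfield F} {r : ℕ} {P : GL (Fin 3) F} (H : OddRat3 hF F₀ r P)

include H

theorem OddRat3.herm : Cfsg.Geo.IsUnitaryForm (frobQ hF) (pullForm 3 q P) := isUnitary_pull hF P

theorem OddRat3.sigma_mem {x : F} (hx : x ∈ F₀) : frobQ hF x ∈ F₀ := by
  rw [frobQ_apply]; exact pow_mem hx q

/-- The involution does not fix the subfield. -/
theorem OddRat3.sigma_ne : ∃ x, x ∈ F₀ ∧ frobQ hF x ≠ x := by
  classical
  haveI := Fintype.ofFinite F₀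
  by_contra hall
  push Not at hall
  obtain ⟨s, hs⟩ := H.odd
  have hc : 2 ≤ Nat.card F₀ := by rw [Nat.card_eq_fintype_card]; exact Fintype.one_lt_card
  have hq : q ^ 2 = Nat.card F₀ ^ (2 * s + 1) := by rw [← hs, ← H.card, hF]
  obtain ⟨m, hm⟩ : Nat.card F₀ ^ s ∣ q := by
    refine (Nat.pow_dvd_pow_iff two_ne_zero).mp ⟨Nat.card F₀, ?_⟩
    rw [← pow_mul, hq, mul_comm s 2, pow_succ]
  have hmm : Nat.card F₀ = m * m := by
    rw [hm, mul_pow, ← pow_mul, mul_comm s 2, pow_succ] at hq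
    rw [← pow_two]
    exact (mul_left_cancel₀ (pow_ne_zero _ (by omega)) hq).symm
  have hpow : ∀ (t : ℕ) (x : F₀), x ^ (Nat.card F₀ ^ t) = x := fun t => by
    induction t with
    | zero => simp
    | succ t ih => intro x; rw [pow_succ, mul_comm, pow_mul, Nat.card_eq_fintype_card, FiniteField.pow_card,
        ← Nat.card_eq_fintype_card, ih]
  have hm2 : 2 ≤ m := by
    rcases m with _ | _ | m <;> omega
  have hroots : ∀ x : F₀, x ^ m = x := fun x => Subtype.ext (by
    have h := hall (x : F) x.2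
    rw [frobQ_apply, hm, pow_mul, ← SubmonoidClass.coe_pow, hpow s x] at h
    rw [SubmonoidClass.coe_pow]; exact h)
  set Pm : Polynomial F₀ := Polynomial.X ^ m - Polynomial.X
  have hdeg : Pm.natDegree = m := FiniteField.X_pow_card_sub_X_natDegree_eq F₀ hm2
  have hne : Pm ≠ 0 := FiniteField.X_pow_card_sub_X_ne_zero F₀ hm2
  have hsub : (Finset.univ : Finset F₀) ⊆ Pm.roots.toFinset := fun x _ => by
    rw [Multiset.mem_toFinset, Polynomial.mem_roots hne, Polynomial.IsRoot]
    simp [Pm, hroots x]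
  have h1 := ((Finset.card_le_card hsub).trans (Multiset.toFinset_card_le _)).trans Pm.card_roots'
  rw [Finset.card_univ, ← Nat.card_eq_fintype_card, hmm, hdeg] at h1
  nlinarith

/-- The restricted automorphism. -/
noncomputable def OddRat3.sigma₀ : F₀ ≃+* F₀ where
  toFun x := ⟨frobQ hF x, H.sigma_mem x.2⟩
  invFun x := ⟨frobQ hF x, H.sigma_mem x.2⟩
  left_inv x := Subtype.ext (H.herm.involutive x)
  right_inv x := Subtype.ext (H.herm.involutive x)
  map_mul' x y := Subtype.ext (map_mul (frobQ hF) (x : F) y)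
  map_add' x y := Subtype.ext (map_add (frobQ hF) (x : F) y)

theorem OddRat3.coe_sigma₀ (x : F₀) : (H.sigma₀ x : F) = frobQ hF x := rfl

/-- The form on coordinates in the subfield. -/
def OddRat3.form₀ : (Fin 3 → F₀) → (Fin 3 → F₀) → F₀ :=
  fun a b => ⟨pullForm 3 q P (incV a) (incV b), H.rat _ _ (incV_rat a) (incV_rat b)⟩

/-- A rational vector with non-zero product. -/
theorem OddRat3.exists_nonorth {w : Fin 3 → F} (hw : w ≠ 0) :
    ∃ z : Fin 3 → F, IsRatVec F₀ z ∧ pullForm 3 q P z w ≠ 0 := by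
  by_contra hc
  push Not at hc
  obtain ⟨x, hx⟩ := (H.herm.nondegenerate w hw).1
  rw [← fl_apply H.herm, pi_eq_sum_univ' x, map_sum] at hx
  exact hx (Finset.sum_eq_zero fun i _ => by rw [map_smul, fl_apply, hc _ (isRat_single i), smul_zero])

theorem OddRat3.herm₀ : Cfsg.Geo.IsUnitaryForm H.sigma₀ H.form₀ := by
  refine ⟨fun h => ?_, fun a => Subtype.ext (H.herm.involutive _), fun x y v => Subtype.ext (H.herm.add_left _ _ _),
    fun c x v => Subtype.ext (H.herm.smul_left _ _ _), fun v w => Subtype.ext (H.herm.herm _ _), fun v hv => ?_⟩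
  · obtain ⟨x, hx, hne⟩ := H.sigma_ne
    exact hne (congrArg Subtype.val (RingEquiv.congr_fun h (⟨x, hx⟩ : F₀)))
  · obtain ⟨z, hz, hne⟩ := H.exists_nonorth (w := incV v) (fun h => hv (incV_injective (h.trans incV_zero.symm)))
    obtain ⟨a, rfl⟩ := exists_incV hz
    refine ⟨⟨a, fun h => hne (congrArg Subtype.val h)⟩, ⟨a, fun h => hne ?_⟩⟩
    exact (eq_zero_comm H.herm).mp (congrArg Subtype.val h)

theorem OddRat3.exists_skew₀ : ∃ ζ : F, ζ ∈ F₀ ∧ ζ ≠ 0 ∧ frobQ hF ζ = -ζ := by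
  obtain ⟨ζ, hζ, hζ'⟩ := exists_skew H.herm₀
  exact ⟨ζ, ζ.2, fun h => hζ (Subtype.ext h), congrArg Subtype.val hζ'⟩

theorem OddRat3.exists_trace₀ {a : F} (ha : a ∈ F₀) (haσ : frobQ hF a = a) :
    ∃ k : F, k ∈ F₀ ∧ k + frobQ hF k = a := by
  obtain ⟨k, hk⟩ := exists_trace H.herm₀ (a := (⟨a, ha⟩ : F₀)) (Subtype.ext haσ)
  exact ⟨k, k.2, congrArg Subtype.val hk⟩

theorem OddRat3.sq_mem {c : F} (hc : c * c ∈ F₀) : c ∈ F₀ := by
  haveI := Fintype.ofFinite F₀
  rcases Nat.even_or_odd (Nat.card F₀) with h | h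
  · haveI : CharP F 2 := by
      haveI : CharP F₀ 2 := ringChar.of_eq (FiniteField.even_card_iff_char_two.mpr
        (by rw [← Nat.card_eq_fintype_card]; exact Nat.even_iff.mp h))
      exact CharTwo.of_one_ne_zero_of_two_eq_zero one_ne_zero
        (congrArg Subtype.val (CharTwo.two_eq_zero (R := F₀)))
    haveI : Fact (Nat.Prime 2) := ⟨Nat.prime_two⟩
    exact mem_subfield_of_pow_char 2 F₀ (by rwa [pow_two])
  · exact mem_subfield_of_sq F₀ H.odd h H.card hc

theorem OddRat3.exists_fixed_new : ∃ y : F, frobQ hF y = y ∧ y ∉ F₀ := by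
  by_contra hc
  push Not at hc
  obtain ⟨θ, hθ, hθ'⟩ := H.sigma_ne
  have hall : ∀ t : F, t ∈ F₀ := by
    intro t
    have hd : θ - frobQ hF θ ≠ 0 := sub_ne_zero.2 fun e => hθ' e.symm
    set b := (t - frobQ hF t) / (θ - frobQ hF θ) with hb
    have hbσ : frobQ hF b = b := by
      rw [hb, map_div₀, map_sub, map_sub, H.herm.involutive, H.herm.involutive, ← neg_sub t,
        ← neg_sub θ, neg_div_neg_eq]
    have haσ : frobQ hF (t - b * θ) = t - b * θ := by
      rw [map_sub, map_mul, hbσ, hb]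
      field_simp
      ring
    have := add_mem (hc _ haσ) (mul_mem (hc _ hbσ) hθ)
    rwa [sub_add_cancel] at this
  haveI := Fintype.ofFinite F₀
  have h1 : Fintype.card F ≤ Fintype.card F₀ :=
    Fintype.card_le_of_injective (fun t => (⟨t, hall t⟩ : F₀)) fun a b h => congrArg Subtype.val h
  rw [H.card, Nat.card_eq_fintype_card] at h1
  have h2 : Fintype.card F₀ ^ 1 < Fintype.card F₀ ^ r :=
    Nat.pow_lt_pow_right Fintype.one_lt_card H.prime.one_lt
  rw [pow_one] at h2
  omega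

theorem OddRat3.finrank_prime : (Module.finrank F₀ F).Prime := by
  haveI := Fintype.ofFinite F₀
  have h1 : Fintype.card F = Fintype.card F₀ ^ Module.finrank F₀ F := Module.card_eq_pow_finrank
  rw [H.card, Nat.card_eq_fintype_card] at h1
  rw [← Nat.pow_right_injective (Fintype.one_lt_card (α := F₀)) h1]
  exact H.prime

/-- A field containing the fixed part of `F₀` and a new fixed element contains every fixed element. -/
theorem OddRat3.fixed_le {K : Subfield F} (hK : ∀ x ∈ K, frobQ hF x = x)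
    (h0 : ∀ x ∈ F₀, frobQ hF x = x → x ∈ K) {τ : F} (hτ : τ ∈ K) (hτn : τ ∉ F₀) {y : F}
    (hy : frobQ hF y = y) : y ∈ K := by
  obtain ⟨θ, hθ, hθ'⟩ := H.sigma_ne
  have hd : θ - frobQ hF θ ≠ 0 := sub_ne_zero.2 fun e => hθ' e.symm
  have hT : θ + frobQ hF θ ∈ K := h0 _ (add_mem hθ (H.sigma_mem hθ)) (by
    rw [map_add, H.herm.involutive]; ring)
  have hN : θ * frobQ hF θ ∈ K := h0 _ (mul_mem hθ (H.sigma_mem hθ)) (by
    rw [map_mul, H.herm.involutive]; ring)
  let S : Subalgebra F₀ F :=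
    { carrier := {t | ∃ a ∈ K, ∃ b ∈ K, t = a + b * θ}
      mul_mem' := by
        rintro _ _ ⟨a, ha, b, hb, rfl⟩ ⟨c, hc, d, hd, rfl⟩
        refine ⟨a * c - b * d * (θ * frobQ hF θ), K.sub_mem (K.mul_mem ha hc) (K.mul_mem (K.mul_mem hb hd) hN),
          a * d + b * c + b * d * (θ + frobQ hF θ),
          K.add_mem (K.add_mem (K.mul_mem ha hd) (K.mul_mem hb hc)) (K.mul_mem (K.mul_mem hb hd) hT), by ring⟩
      add_mem' := by
        rintro _ _ ⟨a, ha, b, hb, rfl⟩ ⟨c, hc, d, hd, rfl⟩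
        exact ⟨a + c, K.add_mem ha hc, b + d, K.add_mem hb hd, by ring⟩
      algebraMap_mem' := fun x => by
        set b := ((x : F) - frobQ hF x) / (θ - frobQ hF θ) with hb
        have hbσ : frobQ hF b = b := by
          rw [hb, map_div₀, map_sub, map_sub, H.herm.involutive, H.herm.involutive, ← neg_sub (x : F),
            ← neg_sub θ, neg_div_neg_eq]
        have hb0 : b ∈ F₀ := div_mem (sub_mem x.2 (H.sigma_mem x.2)) (sub_mem hθ (H.sigma_mem hθ))
        have haσ : frobQ hF ((x : F) - b * θ) = (x : F) - b * θ := by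
          rw [map_sub, map_mul, hbσ, hb]
          field_simp
          ring
        exact ⟨(x : F) - b * θ, h0 _ (sub_mem x.2 (mul_mem hb0 hθ)) haσ, b, h0 _ hb0 hbσ, by
          change (x : F) = _; ring⟩ }
  have htop : S = ⊤ := by
    let L : IntermediateField F₀ F := S.toIntermediateField' (Subalgebra.isField_of_algebraic S)
    haveI := IntermediateField.isSimpleOrder_of_finrank_prime F₀ F H.finrank_prime
    rcases eq_bot_or_eq_top L with hL | hL
    · exfalso
      have hτL : τ ∈ L := ⟨τ, hτ, 0, K.zero_mem, by ring⟩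
      rw [hL, IntermediateField.mem_bot] at hτL
      obtain ⟨a, ha⟩ := hτL
      exact hτn (ha ▸ a.2)
    · exact eq_top_iff.mpr fun a _ => show a ∈ L from hL ▸ IntermediateField.mem_top
  obtain ⟨a, ha, b, hb, rfl⟩ : y ∈ S := htop ▸ Algebra.mem_top
  rw [map_add, map_mul, hK a ha, hK b hb] at hy
  have : b * (θ - frobQ hF θ) = 0 := by linear_combination -hy
  rw [(mul_eq_zero.1 this).resolve_right hd, zero_mul, add_zero]
  exact ha

/-- A rational hyperbolic pair with its pole. -/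
theorem OddRat3.exists_frame : ∃ u v a : Fin 3 → F, IsRatVec F₀ u ∧ IsRatVec F₀ v ∧ IsRatVec F₀ a ∧
    Pair (f := pullForm 3 q P) u v a := by
  obtain ⟨u, -, v, -, e1, e2, e3, -⟩ := exists_pair_in H.herm₀ ⊤ (by
    rw [finrank_top, Module.finrank_pi]; simp)
  obtain ⟨a, ha, hua, hva⟩ := exists_pole H.herm₀ u v
  exact ⟨incV u, incV v, incV a, incV_rat u, incV_rat v, incV_rat a, congrArg Subtype.val e1,
    congrArg Subtype.val e2, congrArg Subtype.val e3, congrArg Subtype.val hua, congrArg Subtype.val hva,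
    fun h => ha (incV_injective (h.trans incV_zero.symm))⟩

/-- The coordinates of a rational vector in a rational frame are rational. -/
theorem OddRat3.frame_coords {u v a : Fin 3 → F} (hu : IsRatVec F₀ u) (hv : IsRatVec F₀ v) (ha : IsRatVec F₀ a)
    (hp : Pair (f := pullForm 3 q P) u v a) {x : Fin 3 → F} (hx : IsRatVec F₀ x) :
    ∃ k l m : F, k ∈ F₀ ∧ l ∈ F₀ ∧ m ∈ F₀ ∧ x = k • u + l • v + m • a := by
  obtain ⟨k, l, m, e⟩ := hp.decomp H.herm x
  obtain ⟨e1, e2, e3, -⟩ := hp.form_coords H.herm k l m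
  rw [← e] at e1 e2 e3
  refine ⟨k, l, m, e1 ▸ H.rat _ _ hx hv, e2 ▸ H.rat _ _ hx hu, ?_, e⟩
  have := div_mem (H.rat _ _ hx ha) (H.rat _ _ ha ha)
  rwa [e3, mul_div_cancel_right₀ _ (hp.aa H.herm)] at this

/-- Rational transvections. -/
theorem OddRat3.uT_rat {u : Fin 3 → F} (hu : IsRatVec F₀ u) (huu : pullForm 3 q P u u = 0) {d : F}
    (hdF : d ∈ F₀) (hd : frobQ hF d = -d) :
    uT H.herm huu d ∈ subGroupF (Fin 3) F₀ ⊓ isoSL (pullForm 3 q P) := by
  refine ⟨mem_subGroupF.mpr ⟨1, one_ne_zero, fun a b => ?_⟩, fun x y => uT_iso H.herm huu hd x y,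
    transGL_mem_sl _ _ _⟩
  have h := congrFun (uT_mulVec H.herm huu d (Pi.single b 1)) a
  rw [Matrix.mulVec_single_one, Matrix.col_apply] at h
  rw [one_mul, h]
  exact isRat_add (isRat_single b) (isRat_smul (mul_mem hdF (H.rat _ _ (isRat_single b) hu)) hu) a

/-- A transvection which is an isometry has a skew parameter. -/
theorem OddRat3.skew_of_iso {v : Fin 3 → F} (hv : pullForm 3 q P v v = 0) (hv0 : v ≠ 0) {d : F}
    (h : uT H.herm hv d ∈ isoSL (pullForm 3 q P)) : frobQ hF d = -d := by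
  obtain ⟨x, hx⟩ := (H.herm.nondegenerate v hv0).1
  have e := (mem_isoSL.mp h).1 x x
  rw [uT_mulVec, H.herm.add_left, add_right H.herm, add_right H.herm, H.herm.smul_left, H.herm.smul_left,
    smul_right H.herm, smul_right H.herm, hv, map_mul, sigma_apply H.herm] at e
  have h2 : (d + frobQ hF d) * (pullForm 3 q P x v * pullForm 3 q P v x) = 0 := by linear_combination e
  have := (mul_eq_zero.1 h2).resolve_right (mul_ne_zero hx fun h0 => hx ((eq_zero_comm H.herm).mp h0))
  linear_combination this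

/-- The parameters of the transvections of a point in a subgroup, as multiples of `ζ`. -/
def OddRat3.par (M : Subgroup (GL (Fin 3) F)) (ζ : F) {v : Fin 3 → F} (hv : pullForm 3 q P v v = 0) :
    AddSubgroup F where
  carrier := {x | uT H.herm hv (ζ * x) ∈ M}
  add_mem' := fun {a b} ha hb => by
    have e : uT H.herm hv (ζ * (a + b)) = uT H.herm hv (ζ * a) * uT H.herm hv (ζ * b) := gl_ext fun y => by
      simp only [Units.val_mul, ← Matrix.mulVec_mulVec, uT_mulVec, H.herm.add_left, H.herm.smul_left, hv, mul_zero,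
        add_zero, mul_add]
      module
    change uT H.herm hv (ζ * (a + b)) ∈ M
    rw [e]; exact M.mul_mem ha hb
  zero_mem' := by
    change uT H.herm hv (ζ * 0) ∈ M
    have e : uT H.herm hv (ζ * 0) = 1 := gl_ext fun y => by simp [uT_mulVec]
    rw [e]; exact M.one_mem
  neg_mem' := fun {a} ha => by
    change uT H.herm hv (ζ * -a) ∈ M
    have e : uT H.herm hv (ζ * -a) = (uT H.herm hv (ζ * a))⁻¹ := eq_inv_of_mul_eq_one_right (gl_ext fun y => by
      simp only [Units.val_mul, ← Matrix.mulVec_mulVec, uT_mulVec, H.herm.add_left, H.herm.smul_left, hv, mul_zero,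
        add_zero, Units.val_one, Matrix.one_mulVec]
      module)
    rw [e]; exact M.inv_mem ha

variable {M : Subgroup (GL (Fin 3) F)} {ζ : F}

theorem OddRat3.mem_par {v : Fin 3 → F} {hv : pullForm 3 q P v v = 0} {x : F} :
    x ∈ H.par M ζ hv ↔ uT H.herm hv (ζ * x) ∈ M := Iff.rfl

theorem OddRat3.par_fixed (hsu : M ≤ isoSL (pullForm 3 q P)) (hζ0 : ζ ≠ 0) (hζ : frobQ hF ζ = -ζ) {v : Fin 3 → F}
    {hv : pullForm 3 q P v v = 0} (hv0 : v ≠ 0) {x : F} (hx : x ∈ H.par M ζ hv) : frobQ hF x = x := by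
  have := H.skew_of_iso hv hv0 (hsu hx)
  rw [map_mul, hζ, neg_mul, neg_inj] at this
  exact mul_left_cancel₀ hζ0 this

theorem OddRat3.par_smul {v : Fin 3 → F} (hv : pullForm 3 q P v v = 0) {c : F}
    (hcv : pullForm 3 q P (c • v) (c • v) = 0) {x : F} :
    x ∈ H.par M ζ hcv ↔ c * frobQ hF c * x ∈ H.par M ζ hv := by
  rw [H.mem_par, H.mem_par, uT_smul H.herm hv c _ hcv, mul_left_comm]

theorem OddRat3.par_conj (hsu : M ≤ isoSL (pullForm 3 q P)) {g : GL (Fin 3) F} (hg : g ∈ M) {v : Fin 3 → F}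
    {hv : pullForm 3 q P v v = 0} {hv' : pullForm 3 q P ((g : Mat) *ᵥ v) ((g : Mat) *ᵥ v) = 0} {x : F}
    (hx : x ∈ H.par M ζ hv) : x ∈ H.par M ζ hv' := by
  rw [H.mem_par, ← conj_uT H.herm (mem_isoSL.mp (hsu hg)).1 hv]
  exact M.mul_mem (M.mul_mem hg hx) (M.inv_mem hg)

theorem OddRat3.par_rat (hle : subGroupF (Fin 3) F₀ ⊓ isoSL (pullForm 3 q P) ≤ M) (hζF : ζ ∈ F₀)
    (hζ : frobQ hF ζ = -ζ) {v : Fin 3 → F} (hv : IsRatVec F₀ v) {hvv : pullForm 3 q P v v = 0} {x : F}
    (hx : x ∈ F₀) (hxσ : frobQ hF x = x) : x ∈ H.par M ζ hvv :=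
  hle (H.uT_rat hv hvv (mul_mem hζF hx) (by rw [map_mul, hζ, hxσ, neg_mul]))

open Cfsg.Agent.H6 in
/-- The transvection parameters at two non-orthogonal isotropic points are multiples of one subfield. -/
theorem OddRat3.pair_par (hζ0 : ζ ≠ 0) (hζ : frobQ hF ζ = -ζ) {z w : Fin 3 → F}
    (hz : pullForm 3 q P z z = 0) (hw : pullForm 3 q P w w = 0) (hzw : pullForm 3 q P z w = 1) {x b : F}
    (hx : x ∈ H.par M ζ hz) (hb : b / ζ ^ 2 ∈ H.par M ζ hw) (hx0 : x ≠ 0) (hb0 : b ≠ 0)
    (h3 : 3 ≤ Nat.card (H.par M ζ hz))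
    (hex : Nat.card (H.par M ζ hz) = 3 → (x * b) ^ 3 ≠ x * b ∧ (x * b) ^ 2 ≠ -1) :
    ∃ K : Subfield F, (∀ y, y ∈ H.par M ζ hz ↔ y * b ∈ K) ∧
      ∀ d, d / ζ ^ 2 ∈ H.par M ζ hw ↔ x * d ∈ K := by
  have hwz : pullForm 3 q P w z = 1 := by rw [H.herm.herm, hzw, map_one]
  let C : Matrix (Fin 3) (Fin 2) F := Matrix.of fun p i => ![z p, ζ⁻¹ * w p] i
  let R : Matrix (Fin 2) (Fin 3) F := Matrix.of fun i p =>
    ![pullForm 3 q P (Pi.single p 1) w, ζ * pullForm 3 q P (Pi.single p 1) z] i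
  have hsumP : ∀ (a y : Fin 3 → F), ∑ p, pullForm 3 q P (Pi.single p 1) a * y p = pullForm 3 q P y a := by
    intro a y
    conv_rhs => rw [← fl_apply H.herm, pi_eq_sum_univ' y, map_sum]
    exact Finset.sum_congr rfl fun p _ => by rw [map_smul, fl_apply, smul_eq_mul, mul_comm]
  have hR : ∀ y : Fin 3 → F, R *ᵥ y = ![pullForm 3 q P y w, ζ * pullForm 3 q P y z] := by
    intro y
    refine funext fun i => ?_
    fin_cases i
    · exact hsumP w y
    · change ∑ p, ζ * pullForm 3 q P (Pi.single p 1) z * y p = ζ * pullForm 3 q P y z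
      rw [← hsumP z y, Finset.mul_sum]
      exact Finset.sum_congr rfl fun p _ => by ring
  have hC : ∀ c : Fin 2 → F, C *ᵥ c = c 0 • z + (c 1 * ζ⁻¹) • w := fun c => funext fun p => by
    change ∑ i, ![z p, ζ⁻¹ * w p] i * c i = _
    rw [Fin.sum_univ_two]
    simp only [Matrix.cons_val_zero, Matrix.cons_val_one, Pi.add_apply, Pi.smul_apply, smul_eq_mul]
    ring
  have hRC : R * C = 1 := by
    refine Matrix.ext_of_mulVec_single fun i => ?_
    rw [← Matrix.mulVec_mulVec, hC, hR, Matrix.one_mulVec]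
    refine funext fun j => ?_
    fin_cases i <;> fin_cases j <;> simp [H.herm.add_left, H.herm.smul_left, hz, hw, hzw, hwz, hζ0]
  set Φ := planeHom C R hRC with hΦ
  have hplane : ∀ (A : SL(2, F)) y, (Φ A : Mat) *ᵥ y =
      y + C *ᵥ (((A : Matrix (Fin 2) (Fin 2) F) - 1) *ᵥ (R *ᵥ y)) := fun A y => by
    rw [hΦ, planeHom_coe, Matrix.add_mulVec, Matrix.one_mulVec, Matrix.mulVec_mulVec,
      Matrix.mulVec_mulVec, Matrix.mul_assoc]
  have hup : ∀ t, Φ (up t) = uT H.herm hz (ζ * t) := fun t => gl_ext fun y => by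
    rw [hplane, hR, uT_mulVec, hC]
    simp [up, sl2, Matrix.mulVec, dotProduct, Fin.sum_univ_two, Matrix.one_apply]
    congr 1
    ring
  have hlo : ∀ t, Φ (lo t) = uT H.herm hw (ζ * (t / ζ ^ 2)) := fun t => gl_ext fun y => by
    rw [hplane, hR, uT_mulVec, hC]
    simp [lo, sl2, Matrix.mulVec, dotProduct, Fin.sum_univ_two, Matrix.one_apply]
    congr 1
    field_simp
  obtain ⟨p, hpc⟩ := CharP.exists F
  haveI := Fact.mk (CharP.char_is_prime F p)
  set G := M.comap Φ with hG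
  have hsign : ∀ g : SL(2, F), tr g = 2 → (π g ∈ G.map π ↔ g ∈ G) := by
    intro g hg
    refine ⟨?_, Subgroup.mem_map_of_mem _⟩
    rintro ⟨g', hg', e⟩
    rcases π_eq_iff.1 e with rfl | rfl
    · exact hg'
    have hgp := pow_char_of_tr_two p hg
    rcases (Fact.out : p.Prime).eq_two_or_odd' with rfl | hodd
    · have h2 : (2 : F) = 0 := by exact_mod_cast CharP.cast_eq_zero F 2
      have hneg : (-g : SL(2, F)) = g := by
        apply sl2_ext <;> rw [sl2_neg] <;> linear_combination (-(1 : F)) * _ * h2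
      rwa [hneg] at hg'
    · have h := G.pow_mem hg' (p + 1)
      rwa [Even.neg_pow hodd.add_one, pow_succ, hgp, one_mul] at h
  have hA : ∀ y, π (up y) ∈ G.map π ↔ y ∈ H.par M ζ hz := fun y => by
    rw [hsign _ (tr_up y), hG, Subgroup.mem_comap, hup, H.mem_par]
  have hB : ∀ d, π (lo d) ∈ G.map π ↔ d / ζ ^ 2 ∈ H.par M ζ hw := fun d => by
    rw [hsign _ (by simp [tr, lo]; norm_num), hG, Subgroup.mem_comap, hlo, H.mem_par]
  have hcard : upSet (G.map π) = H.par M ζ hz := by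
    ext y; exact hA y
  obtain ⟨K, hK1, hK2⟩ := pair_field p (H := G.map π) ((hA x).2 hx) ((hB b).2 hb) hx0 hb0
    (by rw [hcard]; exact h3) (by rw [hcard]; exact hex)
  exact ⟨K, fun y => (hA y).symm.trans (hK1 y), fun d => (hB d).symm.trans (hK2 d)⟩

end Cfsg.Agent.H5.SUThree
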