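import Mathlib

/-!
# Pairs of `3 × 3` matrices commuting up to a cube root of unity
-/

set_option autoImplicit false

namespace Cfsg.Agent.H5.SUThree

open scoped Matrix

/-- Common eigenvectors with pairwise distinct characters are independent. -/
theorem indep_of_chars {K V ι α : Type*} [Field K] [AddCommGroup V] [Module K V] (L : α → V →ₗ[K] V)
    (b : ι → V) (χ : ι → α → K) (hb : ∀ i, b i ≠ 0) (hL : ∀ i t, L t (b i) = χ i t • b i)
    (hinj : ∀ i j, i ≠ j → ∃ t, χ i t ≠ χ j t) : LinearIndependent K b := by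
  classical
  rw [linearIndependent_iff']
  intro s
  induction s using Finset.induction_on with
  | empty => simp
  | insert a s ha ih =>
    intro c hc
    rw [Finset.sum_insert ha] at hc
    have hs : ∀ i ∈ s, c i = 0 := by
      intro i hi
      by_contra hci
      obtain ⟨t, ht⟩ := hinj i a fun e => ha (e ▸ hi)
      have h1 := congrArg (L t) hc
      rw [map_add, map_smul, hL, map_sum, map_zero] at h1
      have h2 : ∑ j ∈ s, (c j * (χ j t - χ a t)) • b j = 0 := by
        have h3 := congrArg (fun v => χ a t • v) hc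
        simp only [smul_zero, smul_add, Finset.smul_sum] at h3
        calc _ = (c a • χ a t • b a + ∑ j ∈ s, L t (c j • b j)) -
              (χ a t • c a • b a + ∑ j ∈ s, χ a t • c j • b j) := by
              rw [smul_comm (χ a t) (c a), add_sub_add_left_eq_sub, ← Finset.sum_sub_distrib]
              refine Finset.sum_congr rfl fun j _ => ?_
              rw [map_smul, hL]
              module
          _ = 0 := by rw [h1, h3, sub_zero]
      exact mul_ne_zero hci (sub_ne_zero.2 ht) (ih _ h2 i hi)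
    intro i hi
    rcases Finset.mem_insert.1 hi with rfl | hi
    · rw [Finset.sum_eq_zero fun j hj => by rw [hs j hj, zero_smul], add_zero, smul_eq_zero] at hc
      exact hc.resolve_right (hb i)
    · exact hs i hi

variable {F : Type*} [Field F]

local notation "Mat" => Matrix (Fin 3) (Fin 3) F

section

variable {x y : GL (Fin 3) F} {ω : F}

theorem omega_cases (h3 : ω ^ 3 = 1) (h1 : ω ≠ 1) {s : F} (hs : s ^ 3 = 1) : ∃ j : Fin 3, s * ω ^ j.val = 1 := by
  have he : ω ^ 2 + ω + 1 = 0 := by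
    have : (ω - 1) * (ω ^ 2 + ω + 1) = 0 := by linear_combination h3
    exact (mul_eq_zero.1 this).resolve_left (sub_ne_zero.2 h1)
  have : (s - 1) * ((s - ω) * (s - ω ^ 2)) = 0 := by
    linear_combination hs - h3 - (s ^ 2 - s * ω) * he
  rcases mul_eq_zero.1 this with h | h
  · exact ⟨0, by rw [sub_eq_zero.1 h]; simp⟩
  rcases mul_eq_zero.1 h with h | h
  · exact ⟨2, by rw [sub_eq_zero.1 h]; exact (by linear_combination h3 : ω * ω ^ 2 = 1)⟩
  · exact ⟨1, by rw [sub_eq_zero.1 h]; exact (by linear_combination h3 : ω ^ 2 * ω ^ 1 = 1)⟩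

/-- Moving across a power of the second. -/
theorem swap_pow {a b : Mat} {s : F} (h : a * b = s • (b * a)) (n : ℕ) : a * b ^ n = s ^ n • (b ^ n * a) := by
  induction n with
  | zero => simp
  | succ n ih =>
    calc a * b ^ (n + 1) = (a * b ^ n) * b := by rw [pow_succ, ← mul_assoc]
      _ = s ^ n • (b ^ n * (a * b)) := by rw [ih, Matrix.smul_mul, mul_assoc]
      _ = _ := by rw [h, Matrix.mul_smul, smul_smul, ← mul_assoc, ← pow_succ, ← pow_succ]

variable (hxy : (x : Matrix (Fin 3) (Fin 3) F) * (y : Matrix (Fin 3) (Fin 3) F) = ω • ((y : Matrix (Fin 3) (Fin 3) F) * (x : Matrix (Fin 3) (Fin 3) F))) (h3 : ω ^ 3 = 1) (h1 : ω ≠ 1)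

include hxy h3 in
theorem swap_rev : (y : Mat) * x = ω ^ 2 • ((x : Mat) * y) := by
  rw [hxy, smul_smul, ← pow_succ, h3, one_smul]

include hxy h3 h1 in
/-- The commutant of such a pair is scalar. -/
theorem commutant_scalar {t : Mat} (hx : (x : Mat) * t = t * x) (hy : (y : Mat) * t = t * y) :
    ∃ c : F, t = c • (1 : Mat) := by
  classical
  have hω0 : ω ≠ 0 := fun e => by rw [e, zero_pow three_ne_zero] at h3; exact zero_ne_one h3
  let L : Fin 2 → Mat →ₗ[F] Mat :=
    ![(LinearMap.mulLeft F (x : Mat)).comp (LinearMap.mulRight F ((x⁻¹ : GL (Fin 3) F) : Mat)),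
      (LinearMap.mulLeft F (y : Mat)).comp (LinearMap.mulRight F ((y⁻¹ : GL (Fin 3) F) : Mat))]
  let b : Fin 3 × Fin 3 → Mat := fun ij => (x : Mat) ^ ij.1.val * (y : Mat) ^ ij.2.val
  let χ : Fin 3 × Fin 3 → Fin 2 → F := fun ij => ![ω ^ ij.2.val, (ω ^ 2) ^ ij.1.val]
  have hb : ∀ ij, b ij ≠ 0 := fun ij h => by
    have := congrArg Matrix.det h
    rw [Matrix.det_mul, Matrix.det_pow, Matrix.det_pow, Matrix.det_zero, mul_eq_zero] at this
    rcases this with h | h
    · exact Matrix.GeneralLinearGroup.det_ne_zero x (pow_eq_zero_iff'.1 h).1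
    · exact Matrix.GeneralLinearGroup.det_ne_zero y (pow_eq_zero_iff'.1 h).1
  have hL : ∀ ij k, L k (b ij) = χ ij k • b ij := by
    rintro ⟨i, j⟩ k
    fin_cases k
    · change (x : Mat) * ((x : Mat) ^ i.val * (y : Mat) ^ j.val * ((x⁻¹ : GL (Fin 3) F) : Mat)) = ω ^ j.val • _
      rw [← mul_assoc, ← mul_assoc, (Commute.self_pow (x : Mat) i.val).eq, mul_assoc ((x : Mat) ^ i.val),
        swap_pow hxy, Matrix.mul_smul, Matrix.smul_mul, ← mul_assoc, mul_assoc _ (x : Mat), Units.mul_inv,
        mul_one]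
    · change (y : Mat) * ((x : Mat) ^ i.val * (y : Mat) ^ j.val * ((y⁻¹ : GL (Fin 3) F) : Mat)) = (ω ^ 2) ^ i.val • _
      rw [← mul_assoc, ← mul_assoc, swap_pow (swap_rev hxy h3), Matrix.smul_mul, Matrix.smul_mul,
        mul_assoc ((x : Mat) ^ i.val), (Commute.self_pow (y : Mat) j.val).eq, ← mul_assoc, mul_assoc _ (y : Mat),
        Units.mul_inv, mul_one]
  have hpow : ∀ i j : Fin 3, ω ^ i.val = ω ^ j.val → i = j := by
    intro i j h
    have hne2 : ω ^ 2 ≠ 1 := fun e => h1 (by
      calc ω = ω ^ 3 * (ω ^ 2)⁻¹ := by field_simp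
        _ = 1 := by rw [h3, e, inv_one, mul_one])
    have h2 : ω ^ 2 ≠ ω := fun e => h1 (mul_left_cancel₀ hω0 (by linear_combination e))
    fin_cases i <;> fin_cases j <;> simp [Ne.symm h1, h1, hne2, Ne.symm hne2, h2, Ne.symm h2] at h ⊢
  have hind : LinearIndependent F b := indep_of_chars L b χ hb hL fun ij kl hne => by
    by_cases hj : ij.2 = kl.2
    · refine ⟨1, fun e => hne (Prod.ext (hpow _ _ ?_) hj)⟩
      change (ω ^ 2) ^ ij.1.val = (ω ^ 2) ^ kl.1.val at e
      have e' := congrArg (· ^ 2) e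
      simp only [← pow_mul] at e'
      have hrep : ∀ n : ℕ, ω ^ (2 * (n * 2)) = ω ^ n := fun n => by
        rw [show 2 * (n * 2) = 3 * n + n by ring, pow_add, pow_mul, h3, one_pow, one_mul]
      rwa [mul_assoc, mul_assoc, hrep, hrep] at e'
    · exact ⟨0, fun e => hj (hpow _ _ e)⟩
  have hspan := hind.span_eq_top_of_card_eq_finrank (by simp [Module.finrank_matrix])
  have hall : ∀ A : Mat, A * t = t * A := by
    intro A
    have hA : A ∈ Submodule.span F (Set.range b) := hspan ▸ Submodule.mem_top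
    induction hA using Submodule.span_induction with
    | mem z hz =>
      obtain ⟨ij, rfl⟩ := hz
      exact ((Commute.pow_left (show Commute (x : Mat) t from hx) _).mul_left
        (Commute.pow_left (show Commute (y : Mat) t from hy) _)).eq
    | zero => simp
    | add u v _ _ hu hv => rw [add_mul, mul_add, hu, hv]
    | smul a u _ hu => rw [Matrix.smul_mul, Matrix.mul_smul, hu]
  obtain ⟨c, hc⟩ := Matrix.mem_range_scalar_iff_commute_single'.2 fun i j => hall (Matrix.single i j 1)
  exact ⟨c, by rw [← hc, Matrix.smul_one_eq_diagonal]; rfl⟩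

include hxy h3 h1 in
/-- Elements commuting with both up to cube roots of unity are multiples of monomials. -/
theorem almost_commutant {t : GL (Fin 3) F} {s₀ s₁ : F} (hs₀ : s₀ ^ 3 = 1) (hs₁ : s₁ ^ 3 = 1)
    (hx : (x : Mat) * t = s₀ • ((t : Mat) * x)) (hy : (y : Mat) * t = s₁ • ((t : Mat) * y)) :
    ∃ (c : F) (i j : ℕ), ((t * x ^ i * y ^ j : GL (Fin 3) F) : Mat) = c • (1 : Mat) := by
  obtain ⟨j, hj⟩ := omega_cases h3 h1 hs₀
  have hsq : (ω ^ 2) ^ 3 = 1 := by rw [← pow_mul, mul_comm, pow_mul, h3, one_pow]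
  have hne : ω ^ 2 ≠ 1 := fun e => h1 (by
    calc ω = ω ^ 3 * (ω ^ 2)⁻¹ := by
          have hω0 : ω ≠ 0 := fun e0 => by rw [e0, zero_pow three_ne_zero] at h3; exact zero_ne_one h3
          field_simp
      _ = 1 := by rw [h3, e, inv_one, mul_one])
  obtain ⟨i, hi⟩ := omega_cases hsq hne hs₁
  have e : ((t * x ^ i.val * y ^ j.val : GL (Fin 3) F) : Mat) = (t : Mat) * (x : Mat) ^ i.val * (y : Mat) ^ j.val := by
    simp
  set T := (t : Mat) * (x : Mat) ^ i.val * (y : Mat) ^ j.val with hT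
  have hxT : (x : Mat) * T = T * x := by
    rw [hT, ← mul_assoc, ← mul_assoc, hx, Matrix.smul_mul, Matrix.smul_mul, mul_assoc (t : Mat) (x : Mat),
      (Commute.self_pow (x : Mat) i.val).eq, ← mul_assoc, mul_assoc _ (x : Mat), swap_pow hxy, Matrix.mul_smul,
      smul_smul, hj, one_smul, ← mul_assoc]
  have hyT : (y : Mat) * T = T * y := by
    rw [hT, ← mul_assoc, ← mul_assoc, hy, Matrix.smul_mul, Matrix.smul_mul, mul_assoc (t : Mat) (y : Mat),
      swap_pow (swap_rev hxy h3), Matrix.mul_smul, Matrix.smul_mul, smul_smul, hi, one_smul, ← mul_assoc,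
      mul_assoc _ (y : Mat), (Commute.self_pow (y : Mat) j.val).eq, ← mul_assoc]
  obtain ⟨c, hc⟩ := commutant_scalar hxy h3 h1 (t := T) hxT hyT
  exact ⟨c, i.val, j.val, e.trans hc⟩

end

end Cfsg.Agent.H5.SUThree
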