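import Cfsg.Agent.H5.SUThree.Lines
import Cfsg.Agent.H5.SUThree.Monomials

/-!
# The smallest odd degree subfield subgroups of `SU₃`: transvections and abelian normalised subgroups
-/

set_option autoImplicit false
set_option linter.unusedSectionVars false

namespace Cfsg.Agent.H5.SUThree

open scoped Matrix
open Cfsg.Agent.H98 Cfsg.Agent.H98.Herm Cfsg.Agent.H1.SUThree

variable {F : Type*} [Field F] [Fintype F] {q : ℕ}

local notation "Mat" => Matrix (Fin 3) (Fin 3) F

variable {hF : Fintype.card F = q ^ 2} {F₀ : Subfield F} {r : ℕ} {P : GL (Fin 3) F} (H : OddRat3 hF F₀ r P)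

include H

omit H in
/-- The smallest case. -/
def IsSmall (hF : Fintype.card F = q ^ 2) (F₀ : Subfield F) : Prop := ∀ t ∈ F₀, frobQ hF t = t → t = 0 ∨ t = 1

/-- The facts about the subfield with four elements. -/
theorem OddRat3.small_facts (hs : IsSmall hF F₀) : (2 : F) = 0 ∧ (∀ ξ ∈ F₀, ξ ≠ 0 → frobQ hF ξ = -ξ → ξ = 1) ∧
    ∃ θ ∈ F₀, θ + frobQ hF θ = 1 ∧ θ * frobQ hF θ = 1 ∧ θ ^ 3 = 1 ∧ θ ≠ 1 := by
  have h2 : (2 : F) = 0 := by
    rcases hs (-1) (neg_mem (one_mem _)) (by rw [map_neg, map_one]) with h | h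
    · exact absurd h (neg_ne_zero.2 one_ne_zero)
    · linear_combination -h
  refine ⟨h2, fun ξ hξ hξ0 hξσ => ?_, ?_⟩
  · rcases hs ξ hξ (by rw [hξσ]; linear_combination (-ξ) * h2) with h | h
    · exact absurd h hξ0
    · exact h
  obtain ⟨θ, hθ, hθ'⟩ := H.sigma_ne
  have hT : θ + frobQ hF θ = 1 := by
    refine (hs _ (add_mem hθ (H.sigma_mem hθ)) (by rw [map_add, H.herm.involutive]; ring)).resolve_left fun h => hθ' ?_
    linear_combination h - θ * h2
  have hN : θ * frobQ hF θ = 1 := by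
    refine (hs _ (mul_mem hθ (H.sigma_mem hθ)) (by rw [map_mul, H.herm.involutive]; ring)).resolve_left fun h => ?_
    rcases mul_eq_zero.1 h with h | h
    · exact hθ' (by rw [h, map_zero])
    · exact hθ' (by rw [map_eq_zero] at h; rw [h, map_zero])
  refine ⟨θ, hθ, hT, hN, ?_, fun h => hθ' (by rw [h, map_one])⟩
  linear_combination (θ + 1) * (θ * hT - hN) - h2

/-- Rational transvections with parameter one. -/
theorem OddRat3.T_mem (hs : IsSmall hF F₀) {z : Fin 3 → F} (hzr : IsRatVec F₀ z) (hz : pullForm 3 q P z z = 0) :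
    uT H.herm hz 1 ∈ subGroupF (Fin 3) F₀ ⊓ isoSL (pullForm 3 q P) :=
  H.uT_rat hzr hz (one_mem _) (by rw [map_one]; linear_combination (H.small_facts hs).1)

/-- Transvections with parameter one are involutions. -/
theorem OddRat3.T_sq (hs : IsSmall hF F₀) {z : Fin 3 → F} (hz : pullForm 3 q P z z = 0) :
    uT H.herm hz 1 * uT H.herm hz 1 = 1 := gl_ext fun y => by
  simp only [Units.val_mul, ← Matrix.mulVec_mulVec, uT_mulVec, H.herm.add_left, H.herm.smul_left, hz, mul_zero,
    add_zero, one_mul, Units.val_one, Matrix.one_mulVec]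
  rw [add_assoc, ← add_smul, ← two_mul, (H.small_facts hs).1, zero_mul, zero_smul, add_zero]

theorem OddRat3.T_ne_one {z : Fin 3 → F} (hz : pullForm 3 q P z z = 0) (hz0 : z ≠ 0) :
    uT H.herm hz 1 ≠ 1 := fun h => by
  obtain ⟨y, hy⟩ := (H.herm.nondegenerate z hz0).1
  have := congrArg (fun g : GL (Fin 3) F => (g : Mat) *ᵥ y) h
  simp only [uT_mulVec, Units.val_one, Matrix.one_mulVec, one_mul, add_eq_left, smul_eq_zero] at this
  exact this.elim hy hz0

/-- An isotropic vector orthogonal to a rational isotropic one is a multiple of it. -/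
theorem OddRat3.iso_perp {z v : Fin 3 → F} (hzr : IsRatVec F₀ z) (hz0 : z ≠ 0) (hz : pullForm 3 q P z z = 0)
    (hv : pullForm 3 q P v v = 0) (hvz : pullForm 3 q P v z = 0) : ∃ c : F, v = c • z := by
  obtain ⟨w, a, -, -, hp⟩ := H.partner hzr hz0 hz
  obtain ⟨k, l, m, rfl⟩ := hp.decomp H.herm v
  obtain ⟨-, e2, -, e4⟩ := hp.form_coords H.herm k l m
  rw [e2] at hvz
  rw [e4, hvz, map_zero, mul_zero, zero_mul, zero_add, zero_add, mul_eq_zero, or_iff_left (hp.aa H.herm),
    mul_eq_zero, map_eq_zero, or_self] at hv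
  exact ⟨k, by rw [hvz, hv, zero_smul, zero_smul, add_zero, add_zero]⟩

/-- A rational element of order four. -/
theorem OddRat3.exists_four (hs : IsSmall hF F₀) : ∃ h ∈ subGroupF (Fin 3) F₀ ⊓ isoSL (pullForm 3 q P),
    h * h ≠ 1 ∧ (h * h) * (h * h) = 1 := by
  obtain ⟨h2, -, θ, hθ, hT, -, -, -⟩ := H.small_facts hs
  obtain ⟨u, w, a, hur, hwr, har, hp⟩ := H.exists_frame
  have hh : pullForm 3 q P a a = 1 :=
    (hs _ (H.rat _ _ har har) (sigma_apply H.herm a a)).resolve_left (hp.aa H.herm)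
  have hau := hp.au H.herm
  have hsq : eich H.herm hp.uu hau θ * eich H.herm hp.uu hau θ = uT H.herm hp.uu 1 := gl_ext fun y => by
    simp only [Units.val_mul, ← Matrix.mulVec_mulVec, uT_mulVec, eich_mulVec, H.herm.add_left, sub_left H.herm,
      H.herm.smul_left, hp.uu, hau, hp.ua, hh]
    match_scalars <;> first | ring1 | linear_combination h2 | linear_combination (pullForm 3 q P y u) * h2 |
      linear_combination (-pullForm 3 q P y a) * h2 + (θ * pullForm 3 q P y u - pullForm 3 q P y u) * h2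
  refine ⟨eich H.herm hp.uu hau θ, ⟨mem_subGroupF.mpr ⟨1, one_ne_zero, fun i j => ?_⟩,
    fun x y => eich_iso H.herm hp.uu hau (by rw [hT, hh]; linear_combination h2) x y,
    eich_mem_sl H.herm hp.uu hau _⟩, ?_, ?_⟩
  · have h := congrFun (eich_mulVec H.herm hp.uu hau θ (Pi.single j 1)) i
    rw [Matrix.mulVec_single_one, Matrix.col_apply] at h
    rw [one_mul, h]
    exact isRat_add (isRat_sub (isRat_single j) (isRat_smul (H.rat _ _ (isRat_single j) har) hur))
      (isRat_smul (H.rat _ _ (isRat_single j) hur) (isRat_add har (isRat_smul hθ hur))) i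
  · rw [hsq]
    exact H.T_ne_one hp.uu fun e => by have := hp.uv; rw [e, zero_left H.herm] at this; exact zero_ne_one this
  · rw [hsq]; exact H.T_sq hs hp.uu

/-- Subspaces invariant under the rational transvections are trivial. -/
theorem OddRat3.irred (hs : IsSmall hF F₀) (W : Submodule F (Fin 3 → F)) (hW : W ≠ ⊥)
    (hinv : ∀ g ∈ subGroupF (Fin 3) F₀ ⊓ isoSL (pullForm 3 q P), ∀ x ∈ W, (g : Mat) *ᵥ x ∈ W) : W = ⊤ := by
  obtain ⟨x, hx, hx0⟩ := Submodule.exists_mem_ne_zero_of_ne_bot hW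
  obtain ⟨u, w, a, hur, hwr, har, hp⟩ := H.exists_frame
  obtain ⟨h2, -, θ, hθ, hT, -, -, -⟩ := H.small_facts hs
  have hh : pullForm 3 q P a a = 1 :=
    (hs _ (H.rat _ _ har har) (sigma_apply H.herm a a)).resolve_left (hp.aa H.herm)
  set z := θ • u + (1 : F) • w + (1 : F) • a with hz
  obtain ⟨ez1, ez2, ez3, ez4⟩ := hp.form_coords H.herm θ 1 1
  rw [← hz] at ez1 ez2 ez3 ez4
  have hzr : IsRatVec F₀ z := isRat_add (isRat_add (isRat_smul hθ hur) (isRat_smul (one_mem _) hwr))
    (isRat_smul (one_mem _) har)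
  have hzz : pullForm 3 q P z z = 0 := by rw [ez4, map_one, hh]; linear_combination hT + h2
  have pull : ∀ y, IsRatVec F₀ y → pullForm 3 q P y y = 0 → ∀ x ∈ W, pullForm 3 q P x y ≠ 0 → y ∈ W := by
    intro y hyr hy x hx hne
    have := W.sub_mem (hinv _ (H.T_mem hs hyr hy) x hx) hx
    rw [uT_mulVec, add_sub_cancel_left, one_mul] at this
    simpa [smul_smul, inv_mul_cancel₀ hne] using W.smul_mem (pullForm 3 q P x y)⁻¹ this
  -- the three points
  have hnot : pullForm 3 q P x u ≠ 0 ∨ pullForm 3 q P x w ≠ 0 ∨ pullForm 3 q P x z ≠ 0 := by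
    by_contra hc
    push Not at hc
    obtain ⟨c1, c2, c3⟩ := hc
    obtain ⟨k, l, m, rfl⟩ := hp.decomp H.herm x
    obtain ⟨d1, d2, d3, -⟩ := hp.form_coords H.herm k l m
    rw [d1] at c2
    rw [d2] at c1
    rw [hz, add_right H.herm, add_right H.herm, smul_right H.herm, smul_right H.herm, smul_right H.herm, d1, d2,
      d3, c1, c2, hh, map_one] at c3
    have : m = 0 := by linear_combination c3
    exact hx0 (by rw [c1, c2, this, zero_smul, zero_smul, zero_smul, add_zero, add_zero])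
  have huw : pullForm 3 q P u w ≠ 0 := by rw [hp.uv]; exact one_ne_zero
  have hwu : pullForm 3 q P w u ≠ 0 := by rw [hp.vu H.herm]; exact one_ne_zero
  have hzu : pullForm 3 q P z u ≠ 0 := by rw [ez2]; exact one_ne_zero
  have hu : u ∈ W := by
    rcases hnot with h | h | h
    · exact pull u hur hp.uu x hx h
    · exact pull u hur hp.uu w (pull w hwr hp.vv x hx h) hwu
    · exact pull u hur hp.uu z (pull z hzr hzz x hx h) hzu
  have hw : w ∈ W := pull w hwr hp.vv u hu huw
  have hzW : z ∈ W := pull z hzr hzz u hu fun h => hzu ((eq_zero_comm H.herm).mp h)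
  have ha : a ∈ W := by
    have : a = z - θ • u - w := by rw [hz]; module
    rw [this]; exact W.sub_mem (W.sub_mem hzW (W.smul_mem _ hu)) hw
  refine eq_top_iff.2 fun y _ => ?_
  obtain ⟨k, l, m, rfl⟩ := hp.decomp H.herm y
  exact W.add_mem (W.add_mem (W.smul_mem _ hu) (W.smul_mem _ hw)) (W.smul_mem _ ha)

/-- An element fixing all rational isotropic points is scalar. -/
theorem OddRat3.scalar_of_lines (hs : IsSmall hF F₀) {x : GL (Fin 3) F} (hx : x ∈ isoSL (pullForm 3 q P))
    (hl : ∀ z, IsRatVec F₀ z → z ≠ 0 → pullForm 3 q P z z = 0 → ∃ c : F, (x : Mat) *ᵥ z = c • z) :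
    ∃ c : F, (x : Mat) = c • (1 : Mat) := by
  obtain ⟨u, w, a, hur, hwr, har, hp⟩ := H.exists_frame
  obtain ⟨h2, -, θ, hθ, hT, -, -, hθ1⟩ := H.small_facts hs
  have hh : pullForm 3 q P a a = 1 :=
    (hs _ (H.rat _ _ har har) (sigma_apply H.herm a a)).resolve_left (hp.aa H.herm)
  set z := θ • u + (1 : F) • w + (1 : F) • a with hz
  obtain ⟨-, ez2, -, ez4⟩ := hp.form_coords H.herm θ 1 1
  rw [← hz] at ez2 ez4
  have hzr : IsRatVec F₀ z := isRat_add (isRat_add (isRat_smul hθ hur) (isRat_smul (one_mem _) hwr))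
    (isRat_smul (one_mem _) har)
  have hzz : pullForm 3 q P z z = 0 := by rw [ez4, map_one, hh]; linear_combination hT + h2
  have hu0 : u ≠ 0 := fun e => by have := hp.uv; rw [e, zero_left H.herm] at this; exact zero_ne_one this
  have hw0 : w ≠ 0 := fun e => by have := hp.uv; rw [e, zero_right H.herm] at this; exact zero_ne_one this
  have hz0 : z ≠ 0 := fun e => by rw [e, zero_left H.herm] at ez2; exact zero_ne_one ez2
  obtain ⟨α, eu⟩ := hl u hur hu0 hp.uu
  obtain ⟨β, ew⟩ := hl w hwr hw0 hp.vv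
  obtain ⟨γ, ez⟩ := hl z hzr hz0 hzz
  have hiso := (mem_isoSL.mp hx).1
  have hα : α ≠ 0 := fun e => hu0 (gl_mulVec_injective x (show (x : Mat) *ᵥ u = (x : Mat) *ᵥ 0 by
    rw [eu, e, zero_smul, Matrix.mulVec_zero]))
  have hβ : β ≠ 0 := fun e => hw0 (gl_mulVec_injective x (show (x : Mat) *ᵥ w = (x : Mat) *ᵥ 0 by
    rw [ew, e, zero_smul, Matrix.mulVec_zero]))
  obtain ⟨k, l, m, ea⟩ := hp.decomp H.herm ((x : Mat) *ᵥ a)
  obtain ⟨d1, d2, d3, -⟩ := hp.form_coords H.herm k l m
  rw [← ea] at d1 d2 d3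
  have hl0 : l = 0 := by
    have := hiso a u
    rw [eu, smul_right H.herm, d2, hp.au H.herm] at this
    exact (mul_eq_zero.1 this).resolve_left (by simpa using hα)
  have hk0 : k = 0 := by
    have := hiso a w
    rw [ew, smul_right H.herm, d1, hp.av H.herm] at this
    exact (mul_eq_zero.1 this).resolve_left (by simpa using hβ)
  rw [hk0, hl0, zero_smul, zero_smul, zero_add, zero_add] at ea
  have ecomb : (θ * α) • u + β • w + m • a = (γ * θ) • u + γ • w + γ • a := by
    have := ez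
    rw [hz, Matrix.mulVec_add, Matrix.mulVec_add, Matrix.mulVec_smul, Matrix.mulVec_smul, Matrix.mulVec_smul, eu, ew,
      ea] at this
    rw [smul_smul, one_smul, one_smul] at this
    rw [this]; module
  obtain ⟨f1, f2, f3, -⟩ := hp.form_coords H.herm (θ * α) β m
  obtain ⟨g1, g2, g3, -⟩ := hp.form_coords H.herm (γ * θ) γ γ
  rw [ecomb] at f1 f2 f3
  rw [g1] at f1
  rw [g2] at f2
  rw [g3, hh, mul_one, mul_one] at f3
  have hθ0 : θ ≠ 0 := fun e => by rw [e, map_zero, add_zero] at hT; exact zero_ne_one hT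
  have hαγ : α = γ := mul_left_cancel₀ hθ0 (by linear_combination -f1)
  refine ⟨γ, Matrix.ext_of_mulVec_single fun j => ?_⟩
  obtain ⟨k', l', m', ej⟩ := hp.decomp H.herm (Pi.single j (1 : F))
  rw [ej, Matrix.smul_mulVec, Matrix.one_mulVec, Matrix.mulVec_add, Matrix.mulVec_add, Matrix.mulVec_smul,
    Matrix.mulVec_smul, Matrix.mulVec_smul, eu, ew, ea, hαγ, ← f2, ← f3]
  module

/-- An abelian group of isometries normalised by the rational elements is scalar. -/
theorem OddRat3.abelian_scalar (hs : IsSmall hF F₀) {Y : Subgroup (GL (Fin 3) F)} (hY : Y ≤ isoSL (pullForm 3 q P))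
    (hnorm : ∀ g ∈ subGroupF (Fin 3) F₀ ⊓ isoSL (pullForm 3 q P), ∀ y ∈ Y, g * y * g⁻¹ ∈ Y)
    (hcomm : ∀ x ∈ Y, ∀ y ∈ Y, x * y = y * x) : ∀ y ∈ Y, ∃ c : F, (y : Mat) = c • (1 : Mat) := by
  classical
  intro y₀ hy₀
  by_contra hns
  have hmove : ∃ z, IsRatVec F₀ z ∧ z ≠ 0 ∧ pullForm 3 q P z z = 0 ∧ ∀ c : F, (y₀ : Mat) *ᵥ z ≠ c • z := by
    by_contra hc
    push Not at hc
    exact hns (H.scalar_of_lines hs (hY hy₀) hc)
  obtain ⟨z, hzr, hz0, hz, hne⟩ := hmove
  have hsub := H.T_mem hs hzr hz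
  set T := uT H.herm hz 1 with hT
  set v := (y₀ : Mat) *ᵥ z with hv
  have hiso := (mem_isoSL.mp (hY hy₀)).1
  have hvv : pullForm 3 q P v v = 0 := by rw [hv, hiso, hz]
  have hvz : pullForm 3 q P v z ≠ 0 := fun h => by
    obtain ⟨c, hc⟩ := H.iso_perp hzr hz0 hz hvv h
    exact hne c hc
  obtain ⟨c, b, hc0, hp⟩ := exists_pair H.herm hz hvv fun h => hvz ((eq_zero_comm H.herm).mp h)
  have hu : T * uT H.herm hvv 1 ∈ Y := by
    rw [← conj_uT H.herm hiso hz 1 hvv, ← hT,
      show T * (y₀ * T * y₀⁻¹) = (T * y₀ * T⁻¹) * y₀⁻¹ by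
        rw [show T⁻¹ = T from inv_eq_of_mul_eq_one_right (H.T_sq hs hz)]; group]
    exact Y.mul_mem (hnorm T hsub y₀ hy₀) (Y.inv_mem hy₀)
  -- the fixed point of this element
  have hbv : pullForm 3 q P b v = 0 := by
    have := hp.av H.herm
    rw [smul_right H.herm, mul_eq_zero] at this
    exact this.resolve_left (by simpa using hc0)
  have hub : ((T * uT H.herm hvv 1 : GL (Fin 3) F) : Mat) *ᵥ b = b := by
    simp only [hT, Units.val_mul, ← Matrix.mulVec_mulVec, uT_mulVec, hbv, hp.au H.herm, mul_zero, zero_smul,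
      add_zero]
  have hχ : ∀ y ∈ Y, ∃ ν : F, (y : Mat) *ᵥ b = ν • b := by
    intro y hy
    set y' := (y : Mat) *ᵥ b with hy'
    have hfix : ((T * uT H.herm hvv 1 : GL (Fin 3) F) : Mat) *ᵥ y' = y' := by
      rw [hy', Matrix.mulVec_mulVec, ← Units.val_mul, hcomm _ hu y hy, Units.val_mul, ← Matrix.mulVec_mulVec, hub]
    obtain ⟨k, l, m, ey⟩ := hp.decomp H.herm y'
    obtain ⟨e1, e2, -, -⟩ := hp.form_coords H.herm k l m
    rw [← ey] at e1 e2
    simp only [hT, Units.val_mul, ← Matrix.mulVec_mulVec, uT_mulVec, H.herm.add_left, H.herm.smul_left,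
      one_mul] at hfix
    rw [e2, add_assoc, add_eq_left] at hfix
    set A := pullForm 3 q P y' v with hA
    have g1 := congrArg (fun t => pullForm 3 q P t z) hfix
    simp only [H.herm.add_left, H.herm.smul_left, hz, mul_zero, add_zero, zero_left H.herm] at g1
    have hA0 : A = 0 := (mul_eq_zero.1 g1).resolve_right hvz
    rw [hA0, zero_smul, zero_add, zero_mul, add_zero, smul_eq_zero, or_iff_left hz0] at hfix
    rw [smul_right H.herm, ← hA, hA0, mul_zero] at e1
    exact ⟨m, by rw [ey, ← e1, hfix, zero_smul, zero_smul, zero_add, zero_add]⟩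
  choose! χ hχ using hχ
  have hb0 : b ≠ 0 := hp.ne
  -- the eigenspace
  let U : Submodule F (Fin 3 → F) :=
    { carrier := {x | ∀ y ∈ Y, (y : Mat) *ᵥ x = χ y • x}
      add_mem' := fun ha hb y hy => by rw [Matrix.mulVec_add, ha y hy, hb y hy, smul_add]
      zero_mem' := fun y _ => by rw [Matrix.mulVec_zero, smul_zero]
      smul_mem' := fun s x hx y hy => by rw [Matrix.mulVec_smul, hx y hy, smul_comm] }
  have hbU : b ∈ U := hχ
  have hU0 : U ≠ ⊥ := fun e => hb0 ((Submodule.mem_bot F).1 (e ▸ hbU))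
  have hUtop : U ≠ ⊤ := fun e => hns ⟨χ y₀, Matrix.ext_of_mulVec_single fun j => by
    rw [(show (Pi.single j (1 : F)) ∈ U from e ▸ Submodule.mem_top) y₀ hy₀, Matrix.smul_mulVec, Matrix.one_mulVec]⟩
  -- conjugate characters
  have htrans : ∀ g ∈ subGroupF (Fin 3) F₀ ⊓ isoSL (pullForm 3 q P), ∀ x ∈ U, ∀ y ∈ Y,
      (y : Mat) *ᵥ ((g : Mat) *ᵥ x) = χ (g⁻¹ * y * g) • ((g : Mat) *ᵥ x) := by
    intro g hg x hx y hy
    have hy' : g⁻¹ * y * g ∈ Y := by simpa using hnorm g⁻¹ (Subgroup.inv_mem _ hg) y hy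
    have := congrArg (fun t => (g : Mat) *ᵥ t) (hx _ hy')
    simp only [Matrix.mulVec_smul, Matrix.mulVec_mulVec, ← Units.val_mul] at this
    rw [show g * (g⁻¹ * y * g) = y * g by group] at this
    rw [Matrix.mulVec_mulVec, ← Units.val_mul, this]
  obtain ⟨g₁, hg₁, x₁, hx₁, hg₁U⟩ : ∃ g ∈ subGroupF (Fin 3) F₀ ⊓ isoSL (pullForm 3 q P), ∃ x ∈ U,
      (g : Mat) *ᵥ x ∉ U := by
    by_contra hc
    push Not at hc
    exact hUtop (H.irred hs U hU0 hc)
  have hU1 : Module.finrank F U = 1 := by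
    set W := Submodule.map (Matrix.mulVecLin (g₁ : Mat)) U with hW
    have hinj : Function.Injective (Matrix.mulVecLin (g₁ : Mat)) := fun s t e => gl_mulVec_injective g₁ e
    have hdis : U ⊓ W = ⊥ := by
      refine (Submodule.eq_bot_iff _).2 ?_
      rintro _ ⟨hxU, t, ht, rfl⟩
      by_contra h0
      refine hg₁U fun y hy => ?_
      have e := htrans g₁ hg₁ x₁ hx₁ y hy
      have e1 := hxU y hy
      have e2 := htrans g₁ hg₁ t ht y hy
      rw [Matrix.mulVecLin_apply] at e1 h0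
      rw [e2] at e1
      rw [e, smul_left_injective F h0 e1]
    have h1 := Submodule.finrank_sup_add_finrank_inf_eq U W
    have h2 := Submodule.finrank_le (U ⊔ W)
    have h3 : Module.finrank F W = Module.finrank F U := (Submodule.equivMapOfInjective _ hinj U).finrank_eq.symm
    rw [hdis, finrank_bot, h3] at h1
    rw [Module.finrank_pi, Fintype.card_fin] at h2
    have h4 := Submodule.one_le_finrank_iff.2 hU0
    omega
  obtain ⟨hh, hhm, hh2, hh4⟩ := H.exists_four hs
  -- every conjugate eigenvector is moved back by the square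
  have hkey : ∀ g ∈ subGroupF (Fin 3) F₀ ⊓ isoSL (pullForm 3 q P),
      ∃ s : F, ((hh * hh : GL (Fin 3) F) : Mat) *ᵥ ((g : Mat) *ᵥ b) = s • ((g : Mat) *ᵥ b) := by
    intro g hg
    set gi : Fin 4 → GL (Fin 3) F := fun i => hh ^ i.val * g with hgi
    have hgim : ∀ i, gi i ∈ subGroupF (Fin 3) F₀ ⊓ isoSL (pullForm 3 q P) :=
      fun i => Subgroup.mul_mem _ (Subgroup.pow_mem _ hhm _) hg
    have hne : ∀ i, (gi i : Mat) *ᵥ b ≠ 0 := fun i e => hb0 (gl_mulVec_injective (gi i) (show _ = (gi i : Mat) *ᵥ 0 by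
      rw [Matrix.mulVec_zero]; exact e))
    by_contra hc
    push Not at hc
    have hinj : ∀ i j : Fin 4, i ≠ j → ∃ y : Y, χ ((gi i)⁻¹ * y * gi i) ≠ χ ((gi j)⁻¹ * y * gi j) := by
      intro i j hij
      by_contra hall
      push Not at hall
      -- the two vectors are proportional
      have hmem : (((gi i)⁻¹ * gi j : GL (Fin 3) F) : Mat) *ᵥ b ∈ U := by
        intro y hy
        have hy' : gi i * y * (gi i)⁻¹ ∈ Y := hnorm _ (hgim i) y hy
        have e := htrans (gi j) (hgim j) b hbU _ hy'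
        rw [← hall ⟨_, hy'⟩] at e
        rw [show (gi i)⁻¹ * (gi i * y * (gi i)⁻¹) * gi i = y by group] at e
        have := congrArg (fun t => (((gi i)⁻¹ : GL (Fin 3) F) : Mat) *ᵥ t) e
        simp only [Matrix.mulVec_smul, Matrix.mulVec_mulVec, ← Units.val_mul] at this
        rw [show (gi i)⁻¹ * (gi i * y * (gi i)⁻¹ * gi j) = y * ((gi i)⁻¹ * gi j) by group] at this
        rw [Matrix.mulVec_mulVec, ← Units.val_mul, this]
      obtain ⟨s, hs'⟩ := exists_smul_eq_of_finrank_eq_one hU1 (x := (⟨b, hbU⟩ : U))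
        (fun e => hb0 (congrArg Subtype.val e)) ⟨_, hmem⟩
      have hs'' : (gi j : Mat) *ᵥ b = s • ((gi i : Mat) *ᵥ b) := by
        have e := congrArg (fun t : U => (gi i : Mat) *ᵥ (t : Fin 3 → F)) hs'
        simp only [Submodule.coe_smul, Matrix.mulVec_smul, Matrix.mulVec_mulVec, ← Units.val_mul,
          mul_inv_cancel_left] at e
        exact e.symm
      have hs0 : s ≠ 0 := fun e => hne j (by rw [hs'', e, zero_smul])
      -- hence the vector is moved back by the square
      set t := (g : Mat) *ᵥ b with ht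
      have hp : ∀ n : ℕ, ((hh ^ n * g : GL (Fin 3) F) : Mat) *ᵥ b = ((hh ^ n : GL (Fin 3) F) : Mat) *ᵥ t := fun n => by
        rw [ht, Units.val_mul, Matrix.mulVec_mulVec]
      change ((hh ^ j.val * g : GL (Fin 3) F) : Mat) *ᵥ b = s • (((hh ^ i.val * g : GL (Fin 3) F) : Mat) *ᵥ b) at hs''
      rw [hp, hp] at hs''
      have h44 : hh ^ 4 = 1 := by rw [← hh4]; simp [pow_succ, mul_assoc]
      have hd : ((hh ^ (j.val + 4 - i.val) : GL (Fin 3) F) : Mat) *ᵥ t = s • t := by
        have e := congrArg (fun w => ((hh ^ (4 - i.val) : GL (Fin 3) F) : Mat) *ᵥ w) hs''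
        simp only [Matrix.mulVec_smul, Matrix.mulVec_mulVec, ← Units.val_mul, ← pow_add] at e
        rw [show 4 - i.val + i.val = 4 by omega, h44, Units.val_one, Matrix.one_mulVec] at e
        rw [show j.val + 4 - i.val = 4 - i.val + j.val by omega, e]
      obtain ⟨d, hd4, hdd⟩ : ∃ d, d ∣ 2 ∧ ∃ s' : F, ((hh ^ d : GL (Fin 3) F) : Mat) *ᵥ t = s' • t := by
        have hmod : hh ^ (j.val + 4 - i.val) = hh ^ ((j.val + 4 - i.val) % 4) := pow_eq_pow_mod _ h44
        rw [hmod] at hd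
        have hcases : (j.val + 4 - i.val) % 4 = 1 ∨ (j.val + 4 - i.val) % 4 = 2 ∨ (j.val + 4 - i.val) % 4 = 3 := by
          have : i.val ≠ j.val := fun e => hij (Fin.ext e)
          omega
        rcases hcases with e | e | e <;> rw [e] at hd
        · exact ⟨1, one_dvd _, s, hd⟩
        · exact ⟨2, dvd_rfl, s, hd⟩
        · refine ⟨1, one_dvd _, s⁻¹, ?_⟩
          have e' := congrArg (fun w => ((hh ^ 1 : GL (Fin 3) F) : Mat) *ᵥ w) hd
          simp only [Matrix.mulVec_smul, Matrix.mulVec_mulVec, ← Units.val_mul, ← pow_add] at e'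
          rw [h44, Units.val_one, Matrix.one_mulVec] at e'
          conv_rhs => rw [e']
          rw [smul_smul, inv_mul_cancel₀ hs0, one_smul]
      obtain ⟨s', hs'''⟩ := hdd
      rcases (Nat.dvd_prime Nat.prime_two).1 hd4 with rfl | rfl
      · refine hc (s' * s') ?_
        rw [pow_one] at hs'''
        rw [Units.val_mul, ← Matrix.mulVec_mulVec, hs''', Matrix.mulVec_smul, hs''', smul_smul]
      · exact hc s' (by rwa [pow_two] at hs''')
    have hind := indep_of_chars (fun y : Y => Matrix.mulVecLin ((y : GL (Fin 3) F) : Mat))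
      (fun i => (gi i : Mat) *ᵥ b) (fun i y => χ ((gi i)⁻¹ * y * gi i)) hne
      (fun i y => htrans (gi i) (hgim i) b hbU y y.2) hinj
    have := hind.fintype_card_le_finrank
    simp at this
  -- so the square is one
  let W : Submodule F (Fin 3 → F) :=
    Submodule.span F {x | ∃ g ∈ subGroupF (Fin 3) F₀ ⊓ isoSL (pullForm 3 q P), x = (g : Mat) *ᵥ b}
  have hW : W = ⊤ := by
    refine H.irred hs W ?_ fun g hg x hx => ?_
    · exact (Submodule.ne_bot_iff _).2 ⟨b, Submodule.subset_span ⟨1, Subgroup.one_mem _, by simp⟩, hb0⟩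
    · refine Submodule.span_le (p := W.comap (Matrix.mulVecLin (g : Mat))).2 ?_ hx
      rintro _ ⟨g', hg', rfl⟩
      exact Submodule.subset_span ⟨g * g', Subgroup.mul_mem _ hg hg', by
        rw [Matrix.mulVecLin_apply, Matrix.mulVec_mulVec, Units.val_mul]⟩
  apply hh2
  refine gl_ext fun x => ?_
  have hx : x ∈ W := hW ▸ Submodule.mem_top
  rw [Units.val_one, Matrix.one_mulVec]
  induction hx using Submodule.span_induction with
  | mem t ht =>
    obtain ⟨g, hg, rfl⟩ := ht
    obtain ⟨s, es⟩ := hkey g hg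
    have hs1 : s * s = 1 := by
      have hne : (g : Mat) *ᵥ b ≠ 0 := fun e0 => hb0 (gl_mulVec_injective g (show _ = (g : Mat) *ᵥ 0 by
        rw [Matrix.mulVec_zero]; exact e0))
      generalize (g : Mat) *ᵥ b = t at es hne ⊢
      have e1 : ((hh * hh : GL (Fin 3) F) : Mat) *ᵥ (((hh * hh : GL (Fin 3) F) : Mat) *ᵥ t) = t := by
        rw [Matrix.mulVec_mulVec, ← Units.val_mul, hh4, Units.val_one, Matrix.one_mulVec]
      rw [es, Matrix.mulVec_smul, es, smul_smul] at e1
      exact smul_left_injective F hne (e1.trans (one_smul F t).symm)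
    have hs2 : s = 1 := by
      have : (s - 1) * (s - 1) = 0 := by linear_combination hs1 - (s - 1) * (H.small_facts hs).1
      exact sub_eq_zero.1 (mul_self_eq_zero.1 this)
    rw [es, hs2, one_smul]
  | zero => simp
  | add s t _ _ h₁ h₂ => rw [Matrix.mulVec_add, h₁, h₂]
  | smul s t _ h₁ => rw [Matrix.mulVec_smul, h₁]

end Cfsg.Agent.H5.SUThree
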