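import Cfsg.Agent.H5.SUThree.Basic

/-!
# Overgroups of odd degree subfield subgroups of `SU₃`: a new scalar, or rational lines
-/

set_option autoImplicit false
set_option linter.unusedSectionVars false

namespace Cfsg.Agent.H5.SUThree

open scoped Matrix
open Cfsg.Agent.H98 Cfsg.Agent.H98.Herm Cfsg.Agent.H1.SUThree

variable {F : Type*} [Field F] [Fintype F] {q : ℕ}

local notation "Mat" => Matrix (Fin 3) (Fin 3) F

variable {hF : Fintype.card F = q ^ 2} {F₀ : Subfield F} {r : ℕ} {P : GL (Fin 3) F} (H : OddRat3 hF F₀ r P)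
variable {M : Subgroup (GL (Fin 3) F)} {ζ : F}

include H

/-- A new scalar at a rational point gives both full root groups of a rational pair. -/
theorem OddRat3.pair_centres (hle : subGroupF (Fin 3) F₀ ⊓ isoSL (pullForm 3 q P) ≤ M)
    (hsu : M ≤ isoSL (pullForm 3 q P)) (hζF : ζ ∈ F₀) (hζ0 : ζ ≠ 0) (hζ : frobQ hF ζ = -ζ)
    {z w : Fin 3 → F} (hzr : IsRatVec F₀ z) (hwr : IsRatVec F₀ w) (hz : pullForm 3 q P z z = 0)
    (hw : pullForm 3 q P w w = 0) (hzw : pullForm 3 q P z w = 1) {τ : F} (hτ : τ ∈ H.par M ζ hz)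
    (hτn : τ ∉ F₀) : z ∈ centres H.herm M ∧ w ∈ centres H.herm M := by
  classical
  have hz0 : z ≠ 0 := fun h => by rw [h, zero_left H.herm] at hzw; exact zero_ne_one hzw
  have hw0 : w ≠ 0 := fun h => by rw [h, zero_right H.herm] at hzw; exact zero_ne_one hzw
  have hζ2 : frobQ hF (ζ ^ 2) = ζ ^ 2 := by rw [map_pow, hζ]; ring
  have h1 : (1 : F) ∈ H.par M ζ hz := H.par_rat hle hζF hζ hzr (one_mem _) (map_one _)
  have h1' : (1 : F) / ζ ^ 2 ∈ H.par M ζ hw := H.par_rat hle hζF hζ hwr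
    (div_mem (one_mem _) (pow_mem hζF 2)) (by rw [map_div₀, map_one, hζ2])
  have h4 : 4 ≤ Nat.card (H.par M ζ hz) := by
    have hsub : ({0, 1, τ, τ + 1} : Set F) ⊆ (H.par M ζ hz : Set F) := by
      rintro t (rfl | rfl | rfl | rfl)
      exacts [zero_mem _, h1, hτ, add_mem hτ h1]
    have a0 : τ ≠ 0 := fun h => hτn (h ▸ zero_mem F₀)
    have a1 : τ ≠ 1 := fun h => hτn (h ▸ one_mem F₀)
    have a2 : τ + 1 ≠ 0 := fun h => hτn (by rw [eq_neg_of_add_eq_zero_left h]; exact neg_mem (one_mem F₀))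
    have h := Nat.card_mono (Set.toFinite _) hsub
    rw [Nat.card_coe_set_eq, Set.ncard_insert_of_notMem (by simp [Ne.symm a0, Ne.symm a2]) (Set.toFinite _),
      Set.ncard_insert_of_notMem (by simp [Ne.symm a1, a0]) (Set.toFinite _),
      Set.ncard_pair (by simp)] at h
    exact h
  obtain ⟨K, hK1, hK2⟩ := H.pair_par hζ0 hζ hz hw hzw h1 h1' one_ne_zero one_ne_zero (by omega) (by omega)
  have hKfix : ∀ x ∈ K, frobQ hF x = x := fun x hx => H.par_fixed hsu hζ0 hζ hz0 ((hK1 x).2 (by rwa [mul_one]))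
  have hall : ∀ y, frobQ hF y = y → y ∈ K := fun y hy => by
    refine H.fixed_le hKfix (fun x hx hxσ => ?_) (τ := τ) ?_ hτn hy
    · have := (hK1 x).1 (H.par_rat hle hζF hζ hzr hx hxσ)
      rwa [mul_one] at this
    · have := (hK1 τ).1 hτ
      rwa [mul_one] at this
  refine ⟨⟨hz, fun d hd => ?_⟩, ⟨hw, fun d hd => ?_⟩⟩
  · have hfix : frobQ hF (d / ζ) = d / ζ := by rw [map_div₀, hd, hζ, neg_div_neg_eq]
    have : d / ζ ∈ H.par M ζ hz := (hK1 _).2 (by rw [mul_one]; exact hall _ hfix)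
    rwa [H.mem_par, mul_div_cancel₀ _ hζ0] at this
  · have hfix : frobQ hF (d * ζ) = d * ζ := by rw [map_mul, hd, hζ, neg_mul_neg]
    have : d * ζ / ζ ^ 2 ∈ H.par M ζ hw := (hK2 _).2 (by rw [one_mul]; exact hall _ hfix)
    rwa [H.mem_par, show ζ * (d * ζ / ζ ^ 2) = d by field_simp] at this

/-- A rational isotropic vector has a rational partner. -/
theorem OddRat3.partner {z : Fin 3 → F} (hzr : IsRatVec F₀ z) (hz0 : z ≠ 0) (hz : pullForm 3 q P z z = 0) :
    ∃ w a, IsRatVec F₀ w ∧ IsRatVec F₀ a ∧ Pair (f := pullForm 3 q P) z w a := by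
  obtain ⟨b, rfl⟩ := exists_incV hzr
  have hb0 : b ≠ 0 := fun h => hz0 (by rw [h, incV_zero])
  obtain ⟨y, hy⟩ := (H.herm₀.nondegenerate b hb0).2
  obtain ⟨w, -, e1, e2, -⟩ := partner_in H.herm₀ (U := ⊤) (e := b) Submodule.mem_top Submodule.mem_top
    (Subtype.ext hz) hy
  obtain ⟨a, ha, hua, hva⟩ := exists_pole H.herm₀ b w
  exact ⟨incV w, incV a, incV_rat w, incV_rat a, hz, congrArg Subtype.val e1, congrArg Subtype.val e2,
    congrArg Subtype.val hua, congrArg Subtype.val hva, fun h => ha (incV_injective (h.trans incV_zero.symm))⟩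

/-- A new scalar at a rational point gives everything. -/
theorem OddRat3.top_of_jump (hq : 3 ≤ q) (hle : subGroupF (Fin 3) F₀ ⊓ isoSL (pullForm 3 q P) ≤ M)
    (hsu : M ≤ isoSL (pullForm 3 q P)) (hζF : ζ ∈ F₀) (hζ0 : ζ ≠ 0) (hζ : frobQ hF ζ = -ζ)
    {z : Fin 3 → F} (hzr : IsRatVec F₀ z) (hz0 : z ≠ 0) {hz : pullForm 3 q P z z = 0} {τ : F}
    (hτ : τ ∈ H.par M ζ hz) (hτn : τ ∉ F₀) : M = isoSL (pullForm 3 q P) := by
  obtain ⟨w, a, hwr, har, hp⟩ := H.partner hzr hz0 hz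
  obtain ⟨hzc, hwc⟩ := H.pair_centres hle hsu hζF hζ0 hζ hzr hwr hz hp.vv hp.uv hτ hτn
  have hh : frobQ hF (pullForm 3 q P a a) = pullForm 3 q P a a := sigma_apply H.herm a a
  obtain ⟨k, hk, hkk⟩ := H.exists_trace₀ (a := - pullForm 3 q P a a) (neg_mem (H.rat _ _ har har))
    (by rw [map_neg, hh])
  set u := k • z + (1 : F) • w + (1 : F) • a with hu
  obtain ⟨e1, e2, e3, e4⟩ := hp.form_coords H.herm k 1 1
  rw [← hu] at e1 e2 e3 e4
  have hur : IsRatVec F₀ u := isRat_add (isRat_add (isRat_smul hk hzr) (isRat_smul (one_mem _) hwr))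
    (isRat_smul (one_mem _) har)
  have huu : pullForm 3 q P u u = 0 := by rw [e4, map_one]; linear_combination hkk
  have hzu : pullForm 3 q P z u = 1 := by rw [H.herm.herm, e2, map_one]
  obtain ⟨-, huc⟩ := H.pair_centres hle hsu hζF hζ0 hζ hzr hur hz huu hzu hτ hτn
  refine top_of_three hF hq P hsu hzc hwc huc (by rw [hp.uv]; exact one_ne_zero) fun s t h => ?_
  have := congrArg (fun y => pullForm 3 q P y a) h
  simp only [H.herm.add_left, H.herm.smul_left, hp.ua, hp.va, mul_zero, add_zero] at this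
  rw [e3, one_mul] at this
  exact hp.aa H.herm this

/-- Without new scalars, the images of rational isotropic points have rational norms against rational ones. -/
theorem OddRat3.norm_rat (hle : subGroupF (Fin 3) F₀ ⊓ isoSL (pullForm 3 q P) ≤ M)
    (hsu : M ≤ isoSL (pullForm 3 q P)) (hζF : ζ ∈ F₀) (hζ0 : ζ ≠ 0) (hζ : frobQ hF ζ = -ζ)
    (hns : ∀ z, IsRatVec F₀ z → z ≠ 0 → ∀ hz : pullForm 3 q P z z = 0, ∀ x ∈ H.par M ζ hz, x ∈ F₀)
    (h3 : ∃ t ∈ F₀, frobQ hF t = t ∧ t ≠ 0 ∧ t ≠ 1)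
    {g : GL (Fin 3) F} (hg : g ∈ M) {e z : Fin 3 → F} (her : IsRatVec F₀ e) (hee : pullForm 3 q P e e = 0)
    (hzr : IsRatVec F₀ z) (hzz : pullForm 3 q P z z = 0) :
    pullForm 3 q P z ((g : Mat) *ᵥ e) * frobQ hF (pullForm 3 q P z ((g : Mat) *ᵥ e)) ∈ F₀ := by
  classical
  set v := (g : Mat) *ᵥ e with hv
  set c := pullForm 3 q P z v with hc
  rcases eq_or_ne c 0 with h0 | hc0
  · rw [h0, zero_mul]; exact zero_mem _
  have hz0 : z ≠ 0 := fun h => hc0 (by rw [hc, h, zero_left H.herm])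
  have hvv : pullForm 3 q P v v = 0 := by rw [hv, (mem_isoSL.mp (hsu hg)).1, hee]
  set k := frobQ hF c⁻¹ with hk
  have hww : pullForm 3 q P (k • v) (k • v) = 0 := by rw [H.herm.smul_left, smul_right H.herm, hvv, mul_zero, mul_zero]
  have hzw : pullForm 3 q P z (k • v) = 1 := by
    rw [smul_right H.herm, hk, H.herm.involutive, ← hc, inv_mul_cancel₀ hc0]
  have hσc : frobQ hF c ≠ 0 := by simpa using hc0
  have hy : c * frobQ hF c ∈ H.par M ζ hww := by
    rw [H.par_smul hvv hww, hk, H.herm.involutive, map_inv₀,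
      show (frobQ hF c)⁻¹ * c⁻¹ * (c * frobQ hF c) = 1 by field_simp]
    exact H.par_conj hsu hg (hv := hee) (H.par_rat hle hζF hζ her (one_mem _) (map_one _))
  set b := ζ ^ 2 * (c * frobQ hF c) with hb
  have hζ2 : ζ ^ 2 ≠ 0 := pow_ne_zero 2 hζ0
  have hb0 : b ≠ 0 := mul_ne_zero hζ2 (mul_ne_zero hc0 hσc)
  have hbpar : b / ζ ^ 2 ∈ H.par M ζ hww := by rwa [hb, mul_div_cancel_left₀ _ hζ2]
  suffices hbF : b ∈ F₀ by
    have := mul_mem (inv_mem (pow_mem hζF 2)) hbF
    rwa [hb, ← mul_assoc, inv_mul_cancel₀ hζ2, one_mul] at this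
  by_contra hbn
  have h1 : (1 : F) ∈ H.par M ζ hzz := H.par_rat hle hζF hζ hzr (one_mem _) (map_one _)
  obtain ⟨t, htF, htσ, ht0, ht1⟩ := h3
  have hcard : 3 ≤ Nat.card (H.par M ζ hzz) := by
    have hsub : ({0, 1, t} : Set F) ⊆ (H.par M ζ hzz : Set F) := by
      rintro y (rfl | rfl | rfl)
      exacts [zero_mem _, h1, H.par_rat hle hζF hζ hzr htF htσ]
    have h := Nat.card_mono (Set.toFinite _) hsub
    rw [Nat.card_coe_set_eq, Set.ncard_insert_of_notMem (by simp [Ne.symm ht0]) (Set.toFinite _),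
      Set.ncard_pair (Ne.symm ht1)] at h
    exact h
  obtain ⟨K, hK1, -⟩ := H.pair_par hζ0 hζ hzz hww hzw h1 hbpar one_ne_zero hb0 hcard fun _ => by
    rw [one_mul]
    refine ⟨fun h => hbn ?_, fun h => hbn (H.sq_mem ?_)⟩
    · have h' : (b - 1) * (b + 1) = 0 := mul_left_cancel₀ hb0 (by linear_combination h)
      rcases mul_eq_zero.1 h' with h'' | h''
      · rw [sub_eq_zero.1 h'']; exact one_mem _
      · rw [eq_neg_of_add_eq_zero_left h'']; exact neg_mem (one_mem _)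
    · rw [← pow_two, h]; exact neg_mem (one_mem _)
  have hbK : b ∈ K := by simpa using (hK1 1).1 h1
  exact hbn (hns z hzr hz0 hzz b ((hK1 b).2 (mul_mem hbK hbK)))

/-- An isotropic vector with rational norms against all rational isotropic ones spans a rational point. -/
theorem OddRat3.line_rat {v : Fin 3 → F} (hv0 : v ≠ 0) (hvv : pullForm 3 q P v v = 0)
    (hN : ∀ z, IsRatVec F₀ z → pullForm 3 q P z z = 0 →
      pullForm 3 q P z v * frobQ hF (pullForm 3 q P z v) ∈ F₀) :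
    ∃ (c : F) (rr : Fin 3 → F), IsRatVec F₀ rr ∧ v = c • rr := by
  obtain ⟨u, w, a, hur, hwr, har, hp⟩ := H.exists_frame
  obtain ⟨k, l, m, rfl⟩ := hp.decomp H.herm v
  obtain ⟨-, -, -, eiso⟩ := hp.form_coords H.herm k l m
  rw [eiso] at hvv
  set h := pullForm 3 q P a a with hhdef
  have hh0 : h ≠ 0 := hp.aa H.herm
  have hhF : h ∈ F₀ := H.rat _ _ har har
  have hhσ : frobQ hF h = h := sigma_apply H.herm a a
  rcases eq_or_ne l 0 with rfl | hl
  · rw [map_zero, mul_zero, zero_mul, zero_add, zero_add, mul_eq_zero, or_iff_left hh0, mul_eq_zero,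
      map_eq_zero, or_self] at hvv
    subst hvv
    exact ⟨k, u, hur, by rw [zero_smul, zero_smul, add_zero, add_zero]⟩
  set X := k / l with hX
  set Y := m / l with hY
  have hσl : frobQ hF l ≠ 0 := by simpa using hl
  have hiso : X + frobQ hF X + h * (Y * frobQ hF Y) = 0 := by
    rw [hX, hY, map_div₀, map_div₀]
    field_simp
    linear_combination hvv
  have hform : ∀ K' m' : F, pullForm 3 q P (K' • u + (1 : F) • w + m' • a) (k • u + l • w + m • a) =
      frobQ hF l * (K' + frobQ hF X + h * m' * frobQ hF Y) := by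
    intro K' m'
    simp only [H.herm.add_left, add_right H.herm, H.herm.smul_left, smul_right H.herm, hp.uu, hp.vv, hp.uv,
      hp.vu H.herm, hp.ua, hp.va, hp.au H.herm, hp.av H.herm, ← hhdef]
    rw [hX, hY, map_div₀, map_div₀]
    field_simp
    ring
  -- the norm of the third coordinate
  have hl2 : l * frobQ hF l ∈ F₀ := by
    have := hN u hur hp.uu
    simp only [add_right H.herm, smul_right H.herm, hp.uu, hp.uv, hp.ua, mul_zero, mul_one, zero_add,
      add_zero, H.herm.involutive] at this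
    rwa [mul_comm] at this
  have hN' : ∀ K' m' : F, K' ∈ F₀ → m' ∈ F₀ → K' + frobQ hF K' + h * (m' * frobQ hF m') = 0 →
      (K' + frobQ hF X + h * m' * frobQ hF Y) * frobQ hF (K' + frobQ hF X + h * m' * frobQ hF Y) ∈ F₀ := by
    intro K' m' hK' hm' hi
    have hzr : IsRatVec F₀ (K' • u + (1 : F) • w + m' • a) :=
      isRat_add (isRat_add (isRat_smul hK' hur) (isRat_smul (one_mem _) hwr)) (isRat_smul hm' har)
    have hzz : pullForm 3 q P (K' • u + (1 : F) • w + m' • a) (K' • u + (1 : F) • w + m' • a) = 0 := by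
      rw [(hp.form_coords H.herm K' 1 m').2.2.2, map_one, ← hhdef]; linear_combination hi
    have := mul_mem (inv_mem hl2) (hN _ hzr hzz)
    rw [hform, map_mul (frobQ hF) (frobQ hF l), H.herm.involutive] at this
    convert this using 1
    field_simp
  -- differences by norm one scalars
  obtain ⟨θ, hθ, hθ'⟩ := H.sigma_ne
  have heps : ∀ a' : F, a' ∈ F₀ → frobQ hF a' = a' → ∃ ε ∈ F₀, ε * frobQ hF ε = 1 ∧
      ε * (frobQ hF θ + a') = θ + a' := by
    intro a' ha haσ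
    have h0 : θ + a' ≠ 0 := fun e => hθ' (by rw [eq_neg_of_add_eq_zero_left e, map_neg, haσ])
    have h0' : frobQ hF θ + a' ≠ 0 := by
      have := (map_ne_zero (frobQ hF)).mpr h0
      rwa [map_add, haσ] at this
    refine ⟨(θ + a') / (frobQ hF θ + a'), div_mem (add_mem hθ ha) (add_mem (H.sigma_mem hθ) ha), ?_,
      div_mul_cancel₀ _ h0'⟩
    rw [map_div₀, map_add, map_add, haσ, H.herm.involutive]
    field_simp
  obtain ⟨ε₁, hε₁F, hε₁N, hε₁⟩ := heps 0 (zero_mem _) (map_zero _)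
  obtain ⟨ε₂, hε₂F, hε₂N, hε₂⟩ := heps 1 (one_mem _) (map_one _)
  rw [add_zero, add_zero] at hε₁
  have hne : (ε₁ - 1) * frobQ hF (ε₂ - 1) - (ε₂ - 1) * frobQ hF (ε₁ - 1) ≠ 0 := by
    have h1 : ε₁ ≠ 1 := fun e => hθ' (by rw [e, one_mul] at hε₁; exact hε₁)
    have h2 : ε₂ ≠ 1 := fun e => hθ' (by rw [e, one_mul] at hε₂; linear_combination hε₂)
    have h12 : ε₁ ≠ ε₂ := fun e => h1 (by rw [← e] at hε₂; linear_combination hε₂ - hε₁)
    have hs1 : frobQ hF ε₁ = ε₁⁻¹ := eq_inv_of_mul_eq_one_right hε₁N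
    have hs2 : frobQ hF ε₂ = ε₂⁻¹ := eq_inv_of_mul_eq_one_right hε₂N
    have e10 : ε₁ ≠ 0 := left_ne_zero_of_mul (hε₁N.trans_ne one_ne_zero)
    have e20 : ε₂ ≠ 0 := left_ne_zero_of_mul (hε₂N.trans_ne one_ne_zero)
    rw [map_sub, map_sub, map_one, hs1, hs2]
    intro e
    have : (ε₁ - 1) * (ε₂ - 1) * (ε₂ - ε₁) = 0 := by
      field_simp at e
      linear_combination e
    rcases mul_eq_zero.1 this with e' | e'
    · exact (mul_eq_zero.1 e').elim (fun x => h1 (sub_eq_zero.1 x)) fun x => h2 (sub_eq_zero.1 x)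
    · exact h12 (sub_eq_zero.1 e').symm
  have key : ∀ K' : F, K' ∈ F₀ → K' + frobQ hF K' + h = 0 → frobQ hF Y * (frobQ hF K' + X) ∈ F₀ := by
    intro K' hK' hi
    have hb := hN' K' 1 hK' (one_mem _) (by rw [map_one]; linear_combination hi)
    set W := frobQ hF Y * (frobQ hF K' + X) with hW
    have hT : ∀ ε : F, ε ∈ F₀ → ε * frobQ hF ε = 1 → (ε - 1) * W + frobQ hF (ε - 1) * frobQ hF W ∈ F₀ := by
      intro ε hε hεN
      have he := hN' K' ε hK' hε (by rw [hεN]; linear_combination hi)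
      have := mul_mem (inv_mem hhF) (sub_mem he hb)
      convert this using 1
      rw [hW]
      simp only [map_add, map_mul, map_sub, map_one, hhσ, H.herm.involutive]
      field_simp
      linear_combination (-(h ^ 2 * frobQ hF Y * Y)) * hεN
    have hT1 := hT ε₁ hε₁F hε₁N
    have hT2 := hT ε₂ hε₂F hε₂N
    have hd1 : frobQ hF (ε₁ - 1) ∈ F₀ := H.sigma_mem (sub_mem hε₁F (one_mem _))
    have hd2 : frobQ hF (ε₂ - 1) ∈ F₀ := H.sigma_mem (sub_mem hε₂F (one_mem _))
    have hden : (ε₁ - 1) * frobQ hF (ε₂ - 1) - (ε₂ - 1) * frobQ hF (ε₁ - 1) ∈ F₀ :=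
      sub_mem (mul_mem (sub_mem hε₁F (one_mem _)) hd2) (mul_mem (sub_mem hε₂F (one_mem _)) hd1)
    have := mul_mem (sub_mem (mul_mem hd2 hT1) (mul_mem hd1 hT2)) (inv_mem hden)
    convert this using 1
    rw [eq_mul_inv_iff_mul_eq₀ hne]
    ring
  obtain ⟨k₀, hk₀, hkk⟩ := H.exists_trace₀ (a := -h) (neg_mem hhF) (by rw [map_neg, hhσ])
  obtain ⟨ξ, hξF, hξ0, hξ⟩ := H.exists_skew₀
  have hY' : Y ∈ F₀ := by
    have a1 := key k₀ hk₀ (by linear_combination hkk)
    have a2 := key (k₀ + ξ) (add_mem hk₀ hξF) (by rw [map_add, hξ]; linear_combination hkk)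
    have := mul_mem (sub_mem a1 a2) (inv_mem hξF)
    rw [map_add, hξ, show (frobQ hF Y * (frobQ hF k₀ + X) - frobQ hF Y * (frobQ hF k₀ + -ξ + X)) * ξ⁻¹ =
      frobQ hF Y by field_simp; ring] at this
    simpa [H.herm.involutive Y] using H.sigma_mem this
  have hX' : X ∈ F₀ := by
    rcases eq_or_ne Y 0 with hY0 | hY0
    · -- then `X` is skew with rational norm
      have hsk : frobQ hF X = -X := by
        rw [hY0, zero_mul, mul_zero, add_zero] at hiso
        linear_combination hiso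
      have := hN' 0 0 (zero_mem _) (zero_mem _) (by simp)
      rw [mul_zero, zero_mul, zero_add, add_zero, H.herm.involutive, hsk, neg_mul] at this
      exact H.sq_mem (by simpa using neg_mem this)
    · have hσY : frobQ hF Y ≠ 0 := by simpa using hY0
      have := sub_mem (mul_mem (inv_mem (H.sigma_mem hY')) (key k₀ hk₀ (by linear_combination hkk)))
        (H.sigma_mem hk₀)
      rwa [← mul_assoc, inv_mul_cancel₀ hσY, one_mul, add_sub_cancel_left] at this
  refine ⟨l, X • u + (1 : F) • w + Y • a,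
    isRat_add (isRat_add (isRat_smul hX' hur) (isRat_smul (one_mem _) hwr)) (isRat_smul hY' har), ?_⟩
  rw [smul_add, smul_add, smul_smul, smul_smul, smul_smul, hX, hY, mul_div_cancel₀ _ hl, mul_div_cancel₀ _ hl,
    mul_one]

/-- An element of the group sending rational isotropic points to rational points is in the subfield group. -/
theorem OddRat3.mem_of_lines (hsu : M ≤ isoSL (pullForm 3 q P)) {g : GL (Fin 3) F} (hg : g ∈ M)
    (hl : ∀ e, IsRatVec F₀ e → e ≠ 0 → pullForm 3 q P e e = 0 →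
      ∃ (c : F) (rr : Fin 3 → F), IsRatVec F₀ rr ∧ (g : Mat) *ᵥ e = c • rr) :
    g ∈ subGroupF (Fin 3) F₀ := by
  obtain ⟨u, w, a, hur, hwr, har, hp⟩ := H.exists_frame
  have hg' := (mem_isoSL.mp (hsu hg)).1
  set h := pullForm 3 q P a a with hhdef
  have hh0 : h ≠ 0 := hp.aa H.herm
  have hhF : h ∈ F₀ := H.rat _ _ har har
  have hu0 : u ≠ 0 := fun e => by have := hp.uv; rw [e, zero_left H.herm] at this; exact zero_ne_one this
  have hw0 : w ≠ 0 := fun e => by have := hp.uv; rw [e, zero_right H.herm] at this; exact zero_ne_one this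
  obtain ⟨k, hk, hkk⟩ := H.exists_trace₀ (a := -h) (neg_mem hhF) (by rw [map_neg, sigma_apply H.herm])
  have hk0 : k ≠ 0 := fun e => hh0 (by rw [e, map_zero, add_zero] at hkk; exact neg_eq_zero.1 hkk.symm)
  set z := k • u + (1 : F) • w + (1 : F) • a with hz
  obtain ⟨ez1, ez2, ez3, ez4⟩ := hp.form_coords H.herm k 1 1
  rw [← hz] at ez1 ez2 ez3 ez4
  have hzr : IsRatVec F₀ z := isRat_add (isRat_add (isRat_smul hk hur) (isRat_smul (one_mem _) hwr))
    (isRat_smul (one_mem _) har)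
  have hzz : pullForm 3 q P z z = 0 := by rw [ez4, map_one, ← hhdef]; linear_combination hkk
  have hz0 : z ≠ 0 := fun e => by rw [e, zero_left H.herm] at ez2; exact zero_ne_one ez2
  obtain ⟨lam, r₁, hr₁, e₁⟩ := hl u hur hu0 hp.uu
  obtain ⟨μ, r₂, hr₂, e₂⟩ := hl w hwr hw0 hp.vv
  obtain ⟨L, r₃, hr₃, e₃⟩ := hl z hzr hz0 hzz
  -- the pole of the two images
  obtain ⟨b₁, rfl⟩ := exists_incV hr₁
  obtain ⟨b₂, rfl⟩ := exists_incV hr₂
  obtain ⟨b₃, hb₃, p1, p2⟩ := exists_pole H.herm₀ b₁ b₂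
  have p1' : pullForm 3 q P (incV b₁) (incV b₃) = 0 := congrArg Subtype.val p1
  have p2' : pullForm 3 q P (incV b₂) (incV b₃) = 0 := congrArg Subtype.val p2
  have h12 : frobQ hF μ * lam * pullForm 3 q P (incV b₁) (incV b₂) = 1 := by
    have := hg' u w
    rw [e₁, e₂, hp.uv, H.herm.smul_left, smul_right H.herm] at this
    linear_combination this
  have hlam : lam ≠ 0 := fun e => by rw [e, mul_zero, zero_mul] at h12; exact zero_ne_one h12
  have hμ : μ ≠ 0 := fun e => by rw [e, map_zero, zero_mul, zero_mul] at h12; exact zero_ne_one h12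
  have hc12 : pullForm 3 q P (incV b₁) (incV b₂) ≠ 0 := fun e => by
    rw [e, mul_zero] at h12; exact zero_ne_one h12
  have hp' : Pair (f := pullForm 3 q P) (lam • incV b₁) (μ • incV b₂) ((g : Mat) *ᵥ a) := by
    rw [← e₁, ← e₂]
    exact ⟨by rw [hg', hp.uu], by rw [hg', hp.vv], by rw [hg', hp.uv], by rw [hg', hp.ua], by rw [hg', hp.va],
      fun e => hp.ne (gl_mulVec_injective g (show (g : Mat) *ᵥ a = (g : Mat) *ᵥ 0 by rw [Matrix.mulVec_zero, e]))⟩
  obtain ⟨s, t, ν, eb⟩ := hp'.decomp H.herm (incV b₃)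
  obtain ⟨s1, s2, s3, -⟩ := hp'.form_coords H.herm s t ν
  rw [← eb] at s1 s2 s3
  rw [smul_right H.herm, (eq_zero_comm H.herm).mp p2', mul_zero] at s1
  rw [smul_right H.herm, (eq_zero_comm H.herm).mp p1', mul_zero] at s2
  rw [← s1, ← s2, zero_smul, zero_smul, zero_add, zero_add] at eb
  have hν : ν ≠ 0 := fun e => hb₃ (incV_injective (by rw [eb, e, zero_smul, incV_zero]))
  have ega : (g : Mat) *ᵥ a = ν⁻¹ • incV b₃ := by rw [eb, smul_smul, inv_mul_cancel₀ hν, one_smul]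
  -- the scalars
  have hL1 : L * frobQ hF lam * pullForm 3 q P r₃ (incV b₁) = 1 := by
    have := hg' z u
    rw [e₃, e₁, ez2, H.herm.smul_left, smul_right H.herm] at this
    linear_combination this
  have hL2 : L * frobQ hF μ * pullForm 3 q P r₃ (incV b₂) = k := by
    have := hg' z w
    rw [e₃, e₂, ez1, H.herm.smul_left, smul_right H.herm] at this
    linear_combination this
  have hL3 : L * frobQ hF ν⁻¹ * pullForm 3 q P r₃ (incV b₃) = h := by
    have := hg' z a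
    rw [e₃, ega, ez3, one_mul, H.herm.smul_left, smul_right H.herm, ← hhdef] at this
    linear_combination this
  have hscal : ∀ {s c x : F}, L * frobQ hF s * x = c → c ≠ 0 → c ∈ F₀ → x ∈ F₀ → L * frobQ hF s ∈ F₀ := by
    intro s c x e hc hcF hx
    have hx0 : x ≠ 0 := fun e0 => hc (by rw [← e, e0, mul_zero])
    have := div_mem hcF hx
    rwa [← e, mul_div_cancel_right₀ _ hx0] at this
  have a1 := hscal hL1 one_ne_zero (one_mem _) (H.rat _ _ hr₃ (incV_rat b₁))
  have a2 := hscal hL2 hk0 hk (H.rat _ _ hr₃ (incV_rat b₂))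
  have a3 := hscal hL3 hh0 hhF (H.rat _ _ hr₃ (incV_rat b₃))
  have hL0 : L ≠ 0 := fun e => by rw [e, zero_mul, zero_mul] at hL1; exact zero_ne_one hL1
  have hσμ : frobQ hF μ ≠ 0 := by simpa using hμ
  have ratio : ∀ {s : F}, L * frobQ hF s ∈ F₀ → μ⁻¹ * s ∈ F₀ := by
    intro s hs
    have := H.sigma_mem (div_mem hs a2)
    rwa [mul_div_mul_left _ _ hL0, map_div₀, H.herm.involutive, H.herm.involutive, div_eq_inv_mul] at this
  refine mem_subGroupF.mpr ⟨μ⁻¹, inv_ne_zero hμ, fun i j => ?_⟩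
  obtain ⟨k', l', m', hk', hl', hm', ej⟩ := H.frame_coords hur hwr har hp (isRat_single (F₀ := F₀) j)
  have e : μ⁻¹ * (g : Mat) i j = (μ⁻¹ • ((g : Mat) *ᵥ Pi.single j 1)) i := by
    rw [Matrix.mulVec_single_one]; rfl
  rw [e, ej, Matrix.mulVec_add, Matrix.mulVec_add, Matrix.mulVec_smul, Matrix.mulVec_smul, Matrix.mulVec_smul,
    e₁, e₂, ega, smul_add, smul_add, smul_smul, smul_smul, smul_smul, smul_smul, smul_smul, smul_smul]
  refine isRat_add (isRat_add (isRat_smul ?_ (incV_rat _)) (isRat_smul ?_ (incV_rat _))) (isRat_smul ?_ (incV_rat _)) i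
  · rw [mul_assoc, mul_left_comm]; exact mul_mem hk' (ratio a1)
  · rw [mul_assoc, mul_left_comm]; exact mul_mem hl' (ratio a2)
  · rw [mul_assoc, mul_left_comm]; exact mul_mem hm' (ratio a3)

/-- Without new scalars the overgroup is the subfield group, if the fixed part of the subfield is not the prime
field of two elements. -/
theorem OddRat3.mem_of_noJump (hle : subGroupF (Fin 3) F₀ ⊓ isoSL (pullForm 3 q P) ≤ M)
    (hsu : M ≤ isoSL (pullForm 3 q P)) (hζF : ζ ∈ F₀) (hζ0 : ζ ≠ 0) (hζ : frobQ hF ζ = -ζ)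
    (hns : ∀ z, IsRatVec F₀ z → z ≠ 0 → ∀ hz : pullForm 3 q P z z = 0, ∀ x ∈ H.par M ζ hz, x ∈ F₀)
    (h3 : ∃ t ∈ F₀, frobQ hF t = t ∧ t ≠ 0 ∧ t ≠ 1)
    {g : GL (Fin 3) F} (hg : g ∈ M) : g ∈ subGroupF (Fin 3) F₀ := by
  refine H.mem_of_lines hsu hg fun e her he0 hee => H.line_rat ?_ ?_ fun z hzr hzz =>
    H.norm_rat hle hsu hζF hζ0 hζ hns h3 hg her hee hzr hzz
  · exact fun h => he0 (gl_mulVec_injective g (show (g : Mat) *ᵥ e = (g : Mat) *ᵥ 0 by rw [Matrix.mulVec_zero, h]))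
  · rw [(mem_isoSL.mp (hsu hg)).1, hee]

end Cfsg.Agent.H5.SUThree
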