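import Cfsg.Agent.H5.SUThree.Eigen
import Cfsg.Agent.H28.ZStar
import Cfsg.Agent.H19.Cores
import Cfsg.Agent.H25.PF14.Solvable

/-!
# Overgroups of the subfield subgroup over the field with four elements

A rational transvection is an isolated involution, so by Glauberman's theorem products of pairs of them lie in the
odd core, which is soluble; its last non-scalar derived term is centralised modulo scalars by these products.
-/

set_option autoImplicit false
set_option linter.unusedSectionVars false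

namespace Cfsg.Agent.H5.SUThree

open scoped Matrix commutatorElement
open Cfsg.Agent.H98 Cfsg.Agent.H98.Herm Cfsg.Agent.H1.SUThree

variable {F : Type*} [Field F] [Fintype F] {q : ℕ}

local notation "Mat" => Matrix (Fin 3) (Fin 3) F

theorem det_one_of_iso {P : GL (Fin 3) F} {g : GL (Fin 3) F} (hg : g ∈ isoSL (pullForm 3 q P)) :
    (g : Mat).det = 1 := congrArg Units.val (MonoidHom.mem_ker.mp (mem_isoSL.mp hg).2)

theorem cube_of_almost {P : GL (Fin 3) F} {a b : GL (Fin 3) F} (ha : a ∈ isoSL (pullForm 3 q P))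
    (hb : b ∈ isoSL (pullForm 3 q P)) {s : F} (h : (a : Mat) * b = s • ((b : Mat) * a)) : s ^ 3 = 1 := by
  have e := congrArg Matrix.det h
  rw [Matrix.det_smul, Matrix.det_mul, Matrix.det_mul, det_one_of_iso ha, det_one_of_iso hb, Fintype.card_fin] at e
  linear_combination -e

variable {hF : Fintype.card F = q ^ 2} {F₀ : Subfield F} {r : ℕ} {P : GL (Fin 3) F} (H : OddRat3 hF F₀ r P)
variable {M : Subgroup (GL (Fin 3) F)}

include H

/-- The product of the transvections of a rational pair. -/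
noncomputable def OddRat3.rho {z w : Fin 3 → F} (hz : pullForm 3 q P z z = 0) (hw : pullForm 3 q P w w = 0) :
    GL (Fin 3) F := uT H.herm hz 1 * uT H.herm hw 1

theorem OddRat3.rho_mem (hs : IsSmall hF F₀) {z w : Fin 3 → F} (hzr : IsRatVec F₀ z) (hwr : IsRatVec F₀ w)
    (hz : pullForm 3 q P z z = 0) (hw : pullForm 3 q P w w = 0) :
    H.rho hz hw ∈ subGroupF (Fin 3) F₀ ⊓ isoSL (pullForm 3 q P) :=
  Subgroup.mul_mem _ (H.T_mem hs hzr hz) (H.T_mem hs hwr hw)

/-- Conjugates of a rational transvection commuting with it are equal to it. -/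
theorem OddRat3.isolated (hs : IsSmall hF F₀) (hsu : M ≤ isoSL (pullForm 3 q P))
    (hns : ∀ z, IsRatVec F₀ z → z ≠ 0 → ∀ hz : pullForm 3 q P z z = 0, ∀ x ∈ H.par M 1 hz, x ∈ F₀)
    {z : Fin 3 → F} (hzr : IsRatVec F₀ z) (hz0 : z ≠ 0) (hz : pullForm 3 q P z z = 0)
    (hT : uT H.herm hz 1 ∈ M) {g : GL (Fin 3) F} (hg : g ∈ M)
    (hc : uT H.herm hz 1 * (g * uT H.herm hz 1 * g⁻¹) = g * uT H.herm hz 1 * g⁻¹ * uT H.herm hz 1) :
    g * uT H.herm hz 1 * g⁻¹ = uT H.herm hz 1 := by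
  have hiso := (mem_isoSL.mp (hsu hg)).1
  set v := (g : Mat) *ᵥ z with hv
  have hvv : pullForm 3 q P v v = 0 := by rw [hv, hiso, hz]
  have hv0 : v ≠ 0 := fun e => hz0 (gl_mulVec_injective g (show (g : Mat) *ᵥ z = (g : Mat) *ᵥ 0 by
    rw [← hv, e, Matrix.mulVec_zero]))
  rw [conj_uT H.herm hiso hz 1 hvv] at hc ⊢
  have hvz : pullForm 3 q P v z = 0 := by
    have e := congrArg (fun t : GL (Fin 3) F => pullForm 3 q P ((t : Mat) *ᵥ v) z) hc
    simp only [Units.val_mul, ← Matrix.mulVec_mulVec, uT_mulVec, H.herm.add_left, H.herm.smul_left, hvv, hz,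
      mul_zero, add_zero, one_mul] at e
    have h2 : pullForm 3 q P v z * (pullForm 3 q P z v * pullForm 3 q P v z) = 0 := by linear_combination -e
    rcases mul_eq_zero.1 h2 with h | h
    · exact h
    · exact (mul_eq_zero.1 h).elim (fun h => (eq_zero_comm H.herm).mp h) id
  obtain ⟨c, hc'⟩ := H.iso_perp hzr hz0 hz hvv hvz
  have hcz : pullForm 3 q P (c • z) (c • z) = 0 := hc' ▸ hvv
  have hvv' : uT H.herm hvv 1 = uT H.herm hcz 1 := gl_ext fun y => by simp only [uT_mulVec, hc']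
  have hpar : c * frobQ hF c * 1 ∈ H.par M 1 hz := by
    rw [← H.par_smul hz hcz, H.mem_par, one_mul, ← hvv', ← conj_uT H.herm hiso hz 1 hvv]
    exact M.mul_mem (M.mul_mem hg hT) (M.inv_mem hg)
  have hN : c * frobQ hF c = 1 := by
    have hmem := hns z hzr hz0 hz _ hpar
    rw [mul_one] at hmem
    refine (hs _ hmem (by rw [map_mul, H.herm.involutive]; ring)).resolve_left fun h => hv0 ?_
    rcases mul_eq_zero.1 h with h | h
    · rw [hc', h, zero_smul]
    · rw [hc', (map_eq_zero _).1 h, zero_smul]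
  rw [hvv', uT_smul H.herm hz c 1 hcz, hN, one_mul]

/-- A group of determinant-one isometries with scalar commutators and scalar centre on which rational
transvections act by inversion modulo scalars. -/
theorem OddRat3.inverts (hs : IsSmall hF F₀) {X : Subgroup (GL (Fin 3) F)} (hX : X ≤ isoSL (pullForm 3 q P))
    (hodd : Odd (Nat.card X))
    (hcs : ∀ x ∈ X, ∀ y ∈ X, ∃ s : F, (x : Mat) * y = s • ((y : Mat) * x))
    (hz : ∀ x ∈ X, (∀ y ∈ X, x * y = y * x) → ∃ c : F, (x : Mat) = c • (1 : Mat))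
    {T : GL (Fin 3) F} (hTT : T * T = 1) (hTn : ∀ c : F, (T : Mat) ≠ c • (1 : Mat))
    (hTX : ∀ x ∈ X, T * x * T⁻¹ ∈ X) {x : GL (Fin 3) F} (hx : x ∈ X) :
    ∃ c : F, ((x * (T * x * T⁻¹) : GL (Fin 3) F) : Mat) = c • (1 : Mat) := by
  have h2 := (H.small_facts hs).1
  have hTi : T⁻¹ = T := inv_eq_of_mul_eq_one_right hTT
  set u := x * (T * x * T⁻¹) with hu
  have huX : u ∈ X := X.mul_mem hx (hTX x hx)
  obtain ⟨s, hs'⟩ := hcs _ (hTX x hx) x hx
  have hsu : (T : Mat) * u = s • ((u : Mat) * T) := by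
    have e1 : T * u = (T * x * T⁻¹) * x * T := by
      rw [hu, hTi]
      calc T * (x * (T * x * T)) = T * x * T * x * T := by group
        _ = _ := rfl
    rw [← Units.val_mul, e1, Units.val_mul, Units.val_mul _ x, hs', Matrix.smul_mul, hu, Units.val_mul x]
  have hcomm : T * u = u * T := by
    have e1 : (T : Mat) * ((T : Mat) * u) = (s * s) • ((u : Mat) * ((T : Mat) * T)) := by
      rw [hsu, Matrix.mul_smul, ← mul_assoc, hsu, Matrix.smul_mul, smul_smul, mul_assoc]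
    rw [← mul_assoc, ← Units.val_mul T, hTT, Units.val_one, one_mul, mul_one] at e1
    have hu0 : (u : Mat) ≠ 0 := Units.ne_zero u
    have hss : s * s = 1 := smul_left_injective F hu0 (e1.symm.trans (one_smul F _).symm)
    have hs1 : s = 1 := by
      have : (s - 1) * (s - 1) = 0 := by linear_combination hss - (s - 1) * h2
      exact sub_eq_zero.1 (mul_self_eq_zero.1 this)
    rw [hs1, one_smul] at hsu
    exact Units.ext hsu
  by_contra hn
  obtain ⟨v, hvX, huv⟩ : ∃ v ∈ X, u * v ≠ v * u := by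
    by_contra hc
    push Not at hc
    exact hn (hz u huX hc)
  obtain ⟨ω, hω⟩ := hcs u huX v hvX
  have hω3 := cube_of_almost (hX huX) (hX hvX) hω
  have hω1 : ω ≠ 1 := fun e => huv (Units.ext (by rw [e, one_smul] at hω; exact hω))
  set w := (T * v * T⁻¹) * v⁻¹ with hw
  have hwX : w ∈ X := X.mul_mem (hTX v hvX) (X.inv_mem hvX)
  have hTwT : T * w * T⁻¹ = w⁻¹ := by
    rw [hw, hTi, mul_inv_rev, mul_inv_rev, mul_inv_rev, inv_inv, hTi]
    calc T * (T * v * T * v⁻¹) * T = (T * T) * (v * (T * (v⁻¹ * T))) := by group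
      _ = _ := by rw [hTT, one_mul]
  -- `w` commutes with `u`
  have huw : u * w = w * u := by
    have huTi : T⁻¹ * u = u * T⁻¹ := by rw [hTi, hcomm]
    have e1 : (u : Mat) * ((T * v * T⁻¹ : GL (Fin 3) F) : Mat) = ω • (((T * v * T⁻¹ : GL (Fin 3) F) : Mat) * u) := by
      have h3 : u * (T * v * T⁻¹) = T * (u * v) * T⁻¹ := by rw [← mul_assoc, ← mul_assoc, ← hcomm, ← mul_assoc T u v]
      have h4 : T * v * T⁻¹ * u = T * (v * u) * T⁻¹ := by rw [mul_assoc (T * v), huTi]; group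
      rw [← Units.val_mul, h3, ← Units.val_mul, h4, Units.val_mul, Units.val_mul T, Units.val_mul u, hω,
        Units.val_mul _ T⁻¹, Units.val_mul T, Units.val_mul v, Matrix.mul_smul, Matrix.smul_mul]
    have e2 : (u : Mat) * ((v⁻¹ : GL (Fin 3) F) : Mat) = ω ^ 2 • (((v⁻¹ : GL (Fin 3) F) : Mat) * u) := by
      have h5 : ((v⁻¹ : GL (Fin 3) F) : Mat) * u = ω • ((u : Mat) * ((v⁻¹ : GL (Fin 3) F) : Mat)) := by
        have := congrArg (fun A => ((v⁻¹ : GL (Fin 3) F) : Mat) * A * ((v⁻¹ : GL (Fin 3) F) : Mat)) hω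
        simp only [Matrix.mul_smul, Matrix.smul_mul] at this
        rw [← mul_assoc ((v⁻¹ : GL (Fin 3) F) : Mat) (u : Mat), mul_assoc _ (v : Mat), Units.mul_inv, mul_one,
          ← mul_assoc ((v⁻¹ : GL (Fin 3) F) : Mat) (v : Mat), Units.inv_mul, one_mul] at this
        exact this
      rw [h5, smul_smul, ← pow_succ, hω3, one_smul]
    refine Units.ext ?_
    rw [Units.val_mul, Units.val_mul w, hw, Units.val_mul _ v⁻¹, ← mul_assoc, e1, Matrix.smul_mul, mul_assoc, e2,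
      Matrix.mul_smul, smul_smul, ← pow_succ', hω3, one_smul, Matrix.mul_assoc]
  obtain ⟨s₁, hs₁⟩ := hcs v hvX w hwX
  obtain ⟨c, i, j, hcij⟩ := almost_commutant hω hω3 hω1 (t := w) (s₀ := 1) (s₁ := s₁) (one_pow 3)
    (cube_of_almost (hX hvX) (hX hwX) hs₁) (by rw [one_smul, ← Units.val_mul, huw, Units.val_mul]) hs₁
  have huj : ∀ n : ℕ, (u : Mat) * ((w * u ^ i * v ^ n : GL (Fin 3) F) : Mat) =
      ω ^ n • (((w * u ^ i * v ^ n : GL (Fin 3) F) : Mat) * u) := by
    intro n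
    have e : u * (w * u ^ i) = (w * u ^ i) * u := by
      rw [← mul_assoc, huw, mul_assoc, ← pow_succ', pow_succ, ← mul_assoc]
    rw [Units.val_mul _ (v ^ n), ← mul_assoc, ← Units.val_mul, e, Units.val_mul _ u, mul_assoc, Units.val_pow_eq_pow_val,
      swap_pow hω, Matrix.mul_smul, ← mul_assoc]
  have hj : ω ^ j = 1 := by
    have := huj j
    rw [hcij, Matrix.mul_smul, Matrix.smul_mul, mul_one, one_mul, smul_smul] at this
    have h6 := smul_left_injective F (Units.ne_zero u) this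
    have hc0 : c ≠ 0 := fun e => Units.ne_zero (w * u ^ i * v ^ j) (by rw [hcij, e, zero_smul])
    exact mul_right_cancel₀ hc0 (by linear_combination -h6)
  -- the power of `v` is a multiple of three, and drops out
  have hj3 : 3 ∣ j := by
    rw [← (orderOf_eq_prime hω3 hω1 : orderOf ω = 3)]
    exact orderOf_dvd_iff_pow_eq_one.mpr hj
  obtain ⟨m, rfl⟩ := hj3
  have hv3 : ∃ d : F, ((v ^ (3 * m) : GL (Fin 3) F) : Mat) = d • (1 : Mat) := by
    refine commutant_scalar hω hω3 hω1 ?_ ?_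
    · rw [Units.val_pow_eq_pow_val, swap_pow hω, pow_mul, hω3, one_pow, one_smul]
    · rw [Units.val_pow_eq_pow_val, (Commute.self_pow (v : Mat) _).eq]
  obtain ⟨d, hd⟩ := hv3
  have hd0 : d ≠ 0 := fun e => Units.ne_zero (v ^ (3 * m)) (by rw [hd, e, zero_smul])
  have hTw : T * w * T⁻¹ = w := by
    have hwu : ((w * u ^ i : GL (Fin 3) F) : Mat) = (c / d) • (1 : Mat) := by
      rw [Units.val_mul _ (v ^ (3 * m)), hd, Matrix.mul_smul, mul_one] at hcij
      calc ((w * u ^ i : GL (Fin 3) F) : Mat) = d⁻¹ • (d • ((w * u ^ i : GL (Fin 3) F) : Mat)) := by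
            rw [smul_smul, inv_mul_cancel₀ hd0, one_smul]
        _ = _ := by rw [hcij, smul_smul, div_eq_inv_mul]
    have e : T * (w * u ^ i) = (w * u ^ i) * T := Units.ext (by
      rw [Units.val_mul, Units.val_mul _ T, hwu, Matrix.mul_smul, Matrix.smul_mul, mul_one, one_mul])
    have e2 : T * u ^ i = u ^ i * T := (Commute.pow_right (show Commute T u from hcomm) i).eq
    rw [mul_inv_eq_iff_eq_mul]
    refine mul_right_cancel (b := u ^ i) ?_
    rw [mul_assoc, e, mul_assoc w T, e2, mul_assoc]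
  have hw1 : w = 1 := by
    have h1 : w ^ 2 = 1 := by
      rw [pow_two]; exact mul_eq_one_iff_eq_inv.mpr (hTw.symm.trans hTwT)
    have h3 : orderOf (⟨w, hwX⟩ : X) ∣ 2 := orderOf_dvd_of_pow_eq_one (Subtype.ext h1)
    rcases (Nat.dvd_prime Nat.prime_two).1 h3 with h | h
    · exact congrArg Subtype.val (orderOf_eq_one_iff.1 h)
    · exact absurd (h ▸ orderOf_dvd_natCard _) hodd.not_two_dvd_nat
  have hTv : T * v = v * T := by
    rw [hw, mul_inv_eq_one, mul_inv_eq_iff_eq_mul] at hw1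
    exact hw1
  obtain ⟨t, ht⟩ := commutant_scalar hω hω3 hω1 (t := (T : Mat)) (congrArg Units.val hcomm).symm
    (congrArg Units.val hTv).symm
  exact hTn t ht

/-- Transvections are not scalar. -/
theorem OddRat3.T_not_scalar {z : Fin 3 → F} (hz : pullForm 3 q P z z = 0) (hz0 : z ≠ 0) (c : F) :
    (uT H.herm hz 1 : Mat) ≠ c • (1 : Mat) := fun e => by
  have h1 := congrArg (fun A : Mat => A *ᵥ z) e
  simp only [uT_mulVec, Matrix.smul_mulVec, Matrix.one_mulVec, hz, mul_zero, zero_smul, add_zero] at h1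
  have hc : c = 1 := smul_left_injective F hz0 (h1.symm.trans (one_smul F z).symm)
  exact H.T_ne_one hz hz0 (Units.ext (by rw [e, hc, one_smul, Units.val_one]))

theorem OddRat3.rho_pole (hs : IsSmall hF F₀) {z w a : Fin 3 → F} (hp : Pair (f := pullForm 3 q P) z w a)
    {x : Fin 3 → F} (hx : (H.rho hp.uu hp.vv : Mat) *ᵥ x = x) : ∃ c : F, x = c • a := by
  obtain ⟨k, l, m, rfl⟩ := hp.decomp H.herm x
  obtain ⟨e1, e2, -, -⟩ := hp.form_coords H.herm k l m
  have h2 := (H.small_facts hs).1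
  generalize hy : k • z + l • w + m • a = y at hx e1 e2 ⊢
  rw [OddRat3.rho, Units.val_mul, ← Matrix.mulVec_mulVec, uT_mulVec, uT_mulVec, H.herm.add_left, H.herm.smul_left,
    hp.vu H.herm, e1, e2, one_mul, one_mul, mul_one, add_assoc, add_eq_left] at hx
  have f1 := congrArg (fun t => pullForm 3 q P t z) hx
  simp only [H.herm.add_left, H.herm.smul_left, hp.uu, hp.vu H.herm, mul_one, mul_zero, add_zero,
    zero_left H.herm] at f1
  rw [f1, zero_smul, zero_add, add_zero] at hx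
  rcases smul_eq_zero.1 hx with h | h
  · exact ⟨m, by rw [← hy, h, f1, zero_smul, zero_smul, zero_add, zero_add]⟩
  · exact absurd (by rw [h, zero_left H.herm]) (hp.uv.trans_ne one_ne_zero)

theorem OddRat3.rho_fix {z w a : Fin 3 → F} (hp : Pair (f := pullForm 3 q P) z w a) :
    (H.rho hp.uu hp.vv : Mat) *ᵥ a = a := by
  simp only [OddRat3.rho, Units.val_mul, ← Matrix.mulVec_mulVec, uT_mulVec, hp.au H.herm, hp.av H.herm, mul_zero,
    zero_smul, add_zero]

set_option maxHeartbeats 4000000 in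
/-- The overgroup consists of elements of the subfield group. -/
theorem OddRat3.mem_of_small (hs : IsSmall hF F₀) (hle : subGroupF (Fin 3) F₀ ⊓ isoSL (pullForm 3 q P) ≤ M)
    (hsu : M ≤ isoSL (pullForm 3 q P))
    (hns : ∀ z, IsRatVec F₀ z → z ≠ 0 → ∀ hz : pullForm 3 q P z z = 0, ∀ x ∈ H.par M 1 hz, x ∈ F₀)
    {g : GL (Fin 3) F} (hg : g ∈ M) : g ∈ subGroupF (Fin 3) F₀ := by
  classical
  obtain ⟨h2, -, θ, hθ, hT, hN, hθ3, hθ1⟩ := H.small_facts hs
  haveI := H19.pPrimeCore_normal 2 M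
  set O := Cfsg.pPrimeCore 2 M with hO
  have hOodd : Odd (Nat.card O) := Nat.Coprime.odd_of_right (H19.pPrimeCore_coprime (G := M) 2)
  haveI : Group.IsSolvable O := H25.PF14.odd_solvable O hOodd
  -- pairs give elements of the core
  have hrhoO : ∀ {z w : Fin 3 → F}, IsRatVec F₀ z → IsRatVec F₀ w → ∀ (hz : pullForm 3 q P z z = 0)
      (hw : pullForm 3 q P w w = 0), pullForm 3 q P z w = 1 → ∃ e : O, ((e : M) : GL (Fin 3) F) = H.rho hz hw := by
    intro z w hzr hwr hz hw hzw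
    have hz0 : z ≠ 0 := fun e => by rw [e, zero_left H.herm] at hzw; exact zero_ne_one hzw
    have hTz := hle (H.T_mem hs hzr hz)
    have hTw := hle (H.T_mem hs hwr hw)
    set t : M := ⟨uT H.herm hz 1, hTz⟩ with ht
    have hiso : H28.IsIsolatedInvolution t := by
      refine ⟨orderOf_eq_prime (by rw [pow_two]; exact Subtype.ext (H.T_sq hs hz))
        (fun e => H.T_ne_one hz hz0 (congrArg Subtype.val e)), fun m hm => Subtype.ext ?_⟩
      exact H.isolated hs hsu hns hzr hz0 hz hTz m.2 (congrArg Subtype.val hm.eq)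
    set m : M := ⟨uT H.herm hz 1, hTz⟩ * ⟨uT H.herm hw 1, hTw⟩ with hm
    have hmz : ((m : GL (Fin 3) F) : Mat) *ᵥ z = w := by
      rw [hm, Subgroup.coe_mul, Units.val_mul, ← Matrix.mulVec_mulVec, uT_mulVec, uT_mulVec, H.herm.add_left,
        H.herm.smul_left, hz, hzw, H.herm.herm w z, hzw, map_one, one_mul, one_smul, zero_add, one_mul, mul_one,
        one_smul]
      calc z + w + z = w + (2 : F) • z := by module
        _ = w := by rw [h2, zero_smul, add_zero]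
    have hww : pullForm 3 q P (((m : GL (Fin 3) F) : Mat) *ᵥ z) (((m : GL (Fin 3) F) : Mat) *ᵥ z) = 0 := by
      rw [hmz]; exact hw
    refine ⟨⟨t * m * t⁻¹ * m⁻¹, H28.zStar hiso m⟩, ?_⟩
    have e : (m : GL (Fin 3) F) * uT H.herm hz 1 * (m : GL (Fin 3) F)⁻¹ = uT H.herm hw 1 := by
      rw [conj_uT H.herm (mem_isoSL.mp (hsu m.2)).1 hz 1 hww]
      exact gl_ext fun y => by simp only [uT_mulVec, hmz]
    have hti : (uT H.herm hz 1)⁻¹ = uT H.herm hz 1 := inv_eq_of_mul_eq_one_right (H.T_sq hs hz)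
    change uT H.herm hz 1 * (m : GL (Fin 3) F) * (uT H.herm hz 1)⁻¹ * (m : GL (Fin 3) F)⁻¹ = _
    rw [hti, OddRat3.rho, ← e]
    group
  -- the derived terms
  let D : ℕ → Subgroup (GL (Fin 3) F) := fun k => ((derivedSeries O k).map O.subtype).map M.subtype
  have hDM : ∀ k, D k ≤ M := fun k => Subgroup.map_subtype_le _
  have hDn : ∀ k, ∀ m ∈ M, ∀ x ∈ D k, m * x * m⁻¹ ∈ D k := by
    rintro k m hm _ ⟨x, hx, rfl⟩
    haveI : ((derivedSeries O k).map O.subtype).Normal := inferInstance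
    exact ⟨⟨m, hm⟩ * x * ⟨m, hm⟩⁻¹, Subgroup.Normal.conj_mem inferInstance x hx _, rfl⟩
  obtain ⟨u, w, a, hur, hwr, har, hp⟩ := H.exists_frame
  have hu0 : u ≠ 0 := fun e => by have := hp.uv; rw [e, zero_left H.herm] at this; exact zero_ne_one this
  have hex : ∃ k, ∀ x ∈ D k, ∃ c : F, (x : Mat) = c • (1 : Mat) := by
    obtain ⟨k, hk⟩ := (Group.isSolvable_def O).mp inferInstance
    exact ⟨k, fun x hx => ⟨1, by
      simp only [D, hk, Subgroup.map_bot, Subgroup.mem_bot] at hx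
      rw [hx, Units.val_one, one_smul]⟩⟩
  set k := Nat.find hex with hk
  have hk0 : k ≠ 0 := fun h0 => by
    have hkey := Nat.find_spec hex
    rw [← hk, h0] at hkey
    obtain ⟨e, he⟩ := hrhoO hur hwr hp.uu hp.vv hp.uv
    obtain ⟨c, hc⟩ := hkey _ ⟨(e : M), ⟨e, by simp, rfl⟩, rfl⟩
    rw [Subgroup.coe_subtype, he] at hc
    have h1 := congrArg (fun A : Mat => A *ᵥ a) hc
    simp only [H.rho_fix hp, Matrix.smul_mulVec, Matrix.one_mulVec] at h1
    have hc1 : c = 1 := smul_left_injective F hp.ne (h1.symm.trans (one_smul F a).symm)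
    obtain ⟨c', hc'⟩ := H.rho_pole hs hp (x := u) (by rw [hc, hc1, one_smul, Matrix.one_mulVec])
    have := hp.uv
    rw [hc', H.herm.smul_left, hp.av H.herm, mul_zero] at this
    exact zero_ne_one this
  obtain ⟨x₁, hx₁, hx₁n⟩ : ∃ x ∈ D (k - 1), ∀ c : F, (x : Mat) ≠ c • (1 : Mat) := by
    have := Nat.find_min hex (show k - 1 < k by omega)
    push Not at this
    exact this
  set X := D (k - 1) with hXdef
  have hXsu : X ≤ isoSL (pullForm 3 q P) := (hDM _).trans hsu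
  have hXodd : Odd (Nat.card X) := by
    refine Odd.of_dvd_nat hOodd ?_
    rw [hXdef]
    simp only [D]
    rw [Subgroup.card_map_of_injective M.subtype_injective, Subgroup.card_map_of_injective O.subtype_injective]
    exact Subgroup.card_subgroup_dvd_card _
  have hcs : ∀ x ∈ X, ∀ y ∈ X, ∃ s : F, (x : Mat) * y = s • ((y : Mat) * x) := by
    rintro _ ⟨_, ⟨x, hx, rfl⟩, rfl⟩ _ ⟨_, ⟨y, hy, rfl⟩, rfl⟩
    have hc : ⁅x, y⁆ ∈ derivedSeries O k := by
      rw [show k = k - 1 + 1 by omega, derivedSeries_succ]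
      exact Subgroup.commutator_mem_commutator hx hy
    obtain ⟨c, hc'⟩ := Nat.find_spec hex _ ⟨_, ⟨_, hc, rfl⟩, rfl⟩
    refine ⟨c, ?_⟩
    set X' := ((x : M) : GL (Fin 3) F) with hX'
    set Y' := ((y : M) : GL (Fin 3) F) with hY'
    change ((X' * Y' * X'⁻¹ * Y'⁻¹ : GL (Fin 3) F) : Mat) = c • 1 at hc'
    change (X' : Mat) * Y' = c • ((Y' : Mat) * X')
    rw [← Units.val_mul, show X' * Y' = (X' * Y' * X'⁻¹ * Y'⁻¹) * (Y' * X') by group, Units.val_mul, hc',
      Matrix.smul_mul, one_mul, Units.val_mul]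
  -- its centre is scalar
  have hZ : ∀ x ∈ X, (∀ y ∈ X, x * y = y * x) → ∃ c : F, (x : Mat) = c • (1 : Mat) := by
    intro x hx hxc
    refine H.abelian_scalar hs (Y := X ⊓ Subgroup.centralizer (X : Set (GL (Fin 3) F)))
      (inf_le_left.trans hXsu) ?_ ?_ x ⟨hx, Subgroup.mem_centralizer_iff.2 fun y hy => (hxc y hy).symm⟩
    · intro m hm y hy
      refine ⟨hDn _ m (hle hm) y hy.1, Subgroup.mem_centralizer_iff.2 fun e he => ?_⟩
      have he' : m⁻¹ * e * m ∈ X := by simpa using hDn _ m⁻¹ (M.inv_mem (hle hm)) e he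
      have := Subgroup.mem_centralizer_iff.1 hy.2 _ he'
      calc e * (m * y * m⁻¹) = m * ((m⁻¹ * e * m) * y) * m⁻¹ := by group
        _ = m * (y * (m⁻¹ * e * m)) * m⁻¹ := by rw [this]
        _ = _ := by group
    · intro s hs' t ht
      exact Subgroup.mem_centralizer_iff.1 ht.2 s hs'.1
  obtain ⟨x₂, hx₂, hx12⟩ : ∃ y ∈ X, x₁ * y ≠ y * x₁ := by
    by_contra hc
    push Not at hc
    obtain ⟨c, hc'⟩ := hZ x₁ hx₁ hc
    exact hx₁n c hc'
  obtain ⟨ω, hω⟩ := hcs x₁ hx₁ x₂ hx₂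
  have hω3 := cube_of_almost (hXsu hx₁) (hXsu hx₂) hω
  have hω1 : ω ≠ 1 := fun e => hx12 (Units.ext (by rw [e, one_smul] at hω; exact hω))
  -- the products of pairs are in `X` up to scalars
  have hrhoX : ∀ {z w : Fin 3 → F}, IsRatVec F₀ z → IsRatVec F₀ w → z ≠ 0 → w ≠ 0 →
      ∀ (hz : pullForm 3 q P z z = 0) (hw : pullForm 3 q P w w = 0),
      ∃ (c : F) (e : GL (Fin 3) F), e ∈ X ∧ ((H.rho hz hw : GL (Fin 3) F) : Mat) = c • (e : Mat) := by
    intro z w hzr hwr hz0 hw0 hz hw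
    have hinv : ∀ {z : Fin 3 → F}, IsRatVec F₀ z → z ≠ 0 → ∀ hz : pullForm 3 q P z z = 0, ∀ x ∈ X,
        ∃ c : F, c ≠ 0 ∧ ((uT H.herm hz 1 * x * (uT H.herm hz 1)⁻¹ : GL (Fin 3) F) : Mat) =
          c • ((x⁻¹ : GL (Fin 3) F) : Mat) := by
      intro z hzr hz0 hz x hx
      obtain ⟨c, hc⟩ := H.inverts hs hXsu hXodd hcs hZ (H.T_sq hs hz) (H.T_not_scalar hz hz0)
        (hDn _ _ (hle (H.T_mem hs hzr hz))) hx
      refine ⟨c, fun e => Units.ne_zero _ (hc.trans (by rw [e, zero_smul])), ?_⟩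
      have := congrArg (fun A => ((x⁻¹ : GL (Fin 3) F) : Mat) * A) hc
      rw [← Units.val_mul, inv_mul_cancel_left, Matrix.mul_smul, mul_one] at this
      exact this
    have hρm := hle (H.rho_mem hs hzr hwr hz hw)
    have halm : ∀ x ∈ X, ∃ s : F, s ^ 3 = 1 ∧ (x : Mat) * (H.rho hz hw : Mat) = s • ((H.rho hz hw : Mat) * x) := by
      intro x hx
      obtain ⟨c₁, hc₁0, hc₁⟩ := hinv hwr hw0 hw x hx
      set Tw := uT H.herm hw 1 with hTw
      set Tz := uT H.herm hz 1 with hTz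
      obtain ⟨c₂, hc₂0, hc₂⟩ := hinv hzr hz0 hz x⁻¹ (X.inv_mem hx)
      rw [← hTz, inv_inv] at hc₂
      have e : ((H.rho hz hw * x * (H.rho hz hw)⁻¹ : GL (Fin 3) F) : Mat) = (c₁ * c₂) • (x : Mat) := by
        rw [OddRat3.rho, ← hTz, ← hTw, show Tz * Tw * x * (Tz * Tw)⁻¹ = Tz * (Tw * x * Tw⁻¹) * Tz⁻¹ by group,
          Units.val_mul, Units.val_mul, hc₁, Matrix.mul_smul, Matrix.smul_mul, ← Units.val_mul, ← Units.val_mul,
          hc₂, smul_smul]
      have e' : (H.rho hz hw : Mat) * x = (c₁ * c₂) • ((x : Mat) * (H.rho hz hw : Mat)) := by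
        have := congrArg (fun A => A * (H.rho hz hw : Mat)) e
        rw [← Units.val_mul, inv_mul_cancel_right, Units.val_mul, Matrix.smul_mul] at this
        exact this
      refine ⟨(c₁ * c₂)⁻¹, ?_, ?_⟩
      · rw [inv_pow, cube_of_almost (hsu hρm) (hXsu hx) e', inv_one]
      · rw [e', smul_smul, inv_mul_cancel₀ (mul_ne_zero hc₁0 hc₂0), one_smul]
    obtain ⟨s₀, hs₀, hs₀'⟩ := halm x₁ hx₁
    obtain ⟨s₁, hs₁, hs₁'⟩ := halm x₂ hx₂
    obtain ⟨c, i, j, hc⟩ := almost_commutant hω hω3 hω1 hs₀ hs₁ hs₀' hs₁'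
    refine ⟨c, (x₁ ^ i * x₂ ^ j)⁻¹, X.inv_mem (X.mul_mem (X.pow_mem hx₁ i) (X.pow_mem hx₂ j)), ?_⟩
    have := congrArg (fun A => A * (((x₁ ^ i * x₂ ^ j)⁻¹ : GL (Fin 3) F) : Mat)) hc
    rw [← Units.val_mul, mul_assoc (H.rho hz hw), mul_inv_cancel_right, Matrix.smul_mul, one_mul] at this
    exact this
  -- two such products which do not commute
  have hh : pullForm 3 q P a a = 1 :=
    (hs _ (H.rat _ _ har har) (sigma_apply H.herm a a)).resolve_left (hp.aa H.herm)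
  set u' := θ • u + (1 : F) • w + (1 : F) • a with hu'
  obtain ⟨d1, d2, d3, d4⟩ := hp.form_coords H.herm θ 1 1
  rw [← hu'] at d1 d2 d3 d4
  have hu'r : IsRatVec F₀ u' := isRat_add (isRat_add (isRat_smul hθ hur) (isRat_smul (one_mem _) hwr))
    (isRat_smul (one_mem _) har)
  have hu'u' : pullForm 3 q P u' u' = 0 := by rw [d4, map_one, hh]; linear_combination hT + h2
  have huu' : pullForm 3 q P u u' = 1 := by rw [H.herm.herm, d2, map_one]
  have hθw : pullForm 3 q P (θ • w) (θ • w) = 0 := by rw [H.herm.smul_left, smul_right H.herm, hp.vv]; ring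
  have hw0 : w ≠ 0 := fun e => by have := hp.uv; rw [e, zero_right H.herm] at this; exact zero_ne_one this
  have hu'0 : u' ≠ 0 := fun e => by rw [e, zero_left H.herm] at d2; exact zero_ne_one d2
  have hθ0 : θ ≠ 0 := fun e => by rw [e, zero_mul] at hN; exact zero_ne_one hN
  have ha2 : Pair (f := pullForm 3 q P) u u' (u + a) := by
    refine ⟨hp.uu, hu'u', huu', ?_, ?_, fun e => ?_⟩
    · rw [add_right H.herm, hp.uu, hp.ua, add_zero]
    · rw [add_right H.herm, d2, d3, hh]; linear_combination h2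
    · have := congrArg (fun t => pullForm 3 q P t a) e
      simp only [H.herm.add_left, hp.ua, hh, zero_left H.herm, zero_add] at this
      exact one_ne_zero this
  have ha3 : Pair (f := pullForm 3 q P) (θ • w) u' (θ • w + a) := by
    refine ⟨hθw, hu'u', ?_, ?_, ?_, fun e => ?_⟩
    · rw [H.herm.smul_left, H.herm.herm, d1, hN]
    · rw [add_right H.herm, hθw, H.herm.smul_left, hp.va]; ring
    · rw [add_right H.herm, smul_right H.herm, d1, d3, hh, mul_comm, hN]; linear_combination h2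
    · have := congrArg (fun t => pullForm 3 q P t a) e
      simp only [H.herm.add_left, H.herm.smul_left, hp.va, hh, zero_left H.herm, mul_zero, zero_add] at this
      exact one_ne_zero this
  set ρ₁ := H.rho hp.uu hp.vv with hρ₁
  set ρ₂ := H.rho hp.uu hu'u' with hρ₂
  obtain ⟨c₁, e₁, he₁, hρ₁'⟩ := hrhoX hur hwr hu0 hw0 hp.uu hp.vv
  obtain ⟨c₂, e₂, he₂, hρ₂'⟩ := hrhoX hur hu'r hu0 hu'0 hp.uu hu'u'
  rw [← hρ₁] at hρ₁'
  rw [← hρ₂] at hρ₂'
  obtain ⟨ω', hω'⟩ := hcs e₁ he₁ e₂ he₂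
  have hρω : (ρ₁ : Mat) * ρ₂ = ω' • ((ρ₂ : Mat) * ρ₁) := by
    rw [hρ₁', hρ₂']
    simp only [Matrix.smul_mul, Matrix.mul_smul, hω', smul_smul]
    congr 1; ring
  have hρ₁r := H.rho_mem hs hur hwr hp.uu hp.vv
  have hρ₂r := H.rho_mem hs hur hu'r hp.uu hu'u'
  rw [← hρ₁] at hρ₁r
  rw [← hρ₂] at hρ₂r
  have hω'3 := cube_of_almost hρ₁r.2 hρ₂r.2 hρω
  have hω'1 : ω' ≠ 1 := by
    intro e
    rw [e, one_smul] at hρω
    have h1 : (ρ₂ : Mat) *ᵥ ((ρ₁ : Mat) *ᵥ (u + a)) = (ρ₁ : Mat) *ᵥ (u + a) := by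
      rw [Matrix.mulVec_mulVec, ← hρω, ← Matrix.mulVec_mulVec, hρ₂, H.rho_fix ha2]
    obtain ⟨c, hc⟩ := H.rho_pole hs ha2 h1
    have e2 : (ρ₁ : Mat) *ᵥ (u + a) = w + a := by
      rw [Matrix.mulVec_add, hρ₁, H.rho_fix hp]
      simp only [OddRat3.rho, Units.val_mul, ← Matrix.mulVec_mulVec, uT_mulVec, H.herm.add_left, H.herm.smul_left,
        hp.uu, hp.uv, hp.vu H.herm, one_mul, mul_one, one_smul, zero_add]
      calc u + w + u + a = w + a + (2 : F) • u := by module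
        _ = w + a := by rw [h2, zero_smul, add_zero]
    rw [e2] at hc
    have f := congrArg (fun t => pullForm 3 q P t u) hc
    simp only [H.herm.add_left, H.herm.smul_left, hp.vu H.herm, hp.au H.herm, hp.uu, add_zero, mul_zero] at f
    exact one_ne_zero f
  -- a cube root of unity is rational
  have hcube : ∀ s : F, s ^ 3 = 1 → s ∈ F₀ := by
    intro s hs3
    obtain ⟨j, hj⟩ := omega_cases hθ3 hθ1 hs3
    rw [eq_inv_of_mul_eq_one_left hj]
    exact inv_mem (pow_mem hθ _)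
  have hρrat : ∀ {z w : Fin 3 → F}, IsRatVec F₀ z → IsRatVec F₀ w → ∀ (hz : pullForm 3 q P z z = 0)
      (hw : pullForm 3 q P w w = 0), ∀ i j, (H.rho hz hw : Mat) i j ∈ F₀ := by
    intro z w hzr hwr hz hw i j
    have e : (((H.rho hz hw : GL (Fin 3) F) : Mat) *ᵥ Pi.single j 1) i = (H.rho hz hw : Mat) i j := by
      rw [Matrix.mulVec_single_one]; rfl
    rw [← e]
    simp only [OddRat3.rho, Units.val_mul, ← Matrix.mulVec_mulVec, uT_mulVec, one_mul]
    have h1 : IsRatVec F₀ (Pi.single j (1 : F) + pullForm 3 q P (Pi.single j 1) w • w : Fin 3 → F) :=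
      isRat_add (isRat_single j) (isRat_smul (H.rat _ _ (isRat_single j) hwr) hwr)
    exact isRat_add h1 (isRat_smul (H.rat _ _ h1 hzr) hzr) i
  -- conjugates of the products are rational
  have hconj : ∀ {z w : Fin 3 → F}, IsRatVec F₀ z → IsRatVec F₀ w → z ≠ 0 → w ≠ 0 →
      ∀ (hz : pullForm 3 q P z z = 0) (hw : pullForm 3 q P w w = 0),
      ∀ i j, ((g * H.rho hz hw * g⁻¹ : GL (Fin 3) F) : Mat) i j ∈ F₀ := by
    intro z' w' hzr hwr' hz0 hw0 hz hw
    obtain ⟨c, e, he, hρe⟩ := hrhoX hzr hwr' hz0 hw0 hz hw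
    have htm : g * H.rho hz hw * g⁻¹ ∈ M := M.mul_mem (M.mul_mem hg (hle (H.rho_mem hs hzr hwr' hz hw))) (M.inv_mem hg)
    set t := g * H.rho hz hw * g⁻¹ with htdef
    set e' := g * e * g⁻¹ with he'def
    have he' : e' ∈ X := hDn _ g hg e he
    have hte : (t : Mat) = c • (e' : Mat) := by
      rw [htdef, he'def, Units.val_mul, Units.val_mul, hρe, Units.val_mul, Units.val_mul, Matrix.mul_smul,
        Matrix.smul_mul]
    have alm : ∀ {ρ x : GL (Fin 3) F} {c' : F}, ρ ∈ isoSL (pullForm 3 q P) → x ∈ X → (ρ : Mat) = c' • (x : Mat) →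
        ∃ s : F, s ^ 3 = 1 ∧ (ρ : Mat) * t = s • ((t : Mat) * ρ) := by
      intro ρ x c' hρ hx hρx
      obtain ⟨s, hs'⟩ := hcs x hx e' he'
      have hst : (ρ : Mat) * t = s • ((t : Mat) * ρ) := by
        rw [hρx, hte]
        simp only [Matrix.smul_mul, Matrix.mul_smul, hs', smul_smul]
        congr 1; ring
      exact ⟨s, cube_of_almost hρ (hsu htm) hst, hst⟩
    obtain ⟨s₀, hs₀, hs₀'⟩ := alm hρ₁r.2 he₁ hρ₁'
    obtain ⟨s₁, hs₁, hs₁'⟩ := alm hρ₂r.2 he₂ hρ₂'
    obtain ⟨d, i, j, hd⟩ := almost_commutant hρω hω'3 hω'1 hs₀ hs₁ hs₀' hs₁'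
    have hd3 : d ^ 3 = 1 := by
      have := congrArg Matrix.det hd
      rw [det_one_of_iso (Subgroup.mul_mem _ (Subgroup.mul_mem _ (hsu htm) (Subgroup.pow_mem _ hρ₁r.2 i))
        (Subgroup.pow_mem _ hρ₂r.2 j)), Matrix.det_smul, Matrix.det_one, Fintype.card_fin, mul_one] at this
      exact this.symm
    have hRrat : ∃ A : GL (Fin 3) F₀, Matrix.GeneralLinearGroup.map (F₀.subtype : F₀ →+* F) A =
        (ρ₁ ^ i * ρ₂ ^ j)⁻¹ := by
      have lift : ∀ ρ : GL (Fin 3) F, (∀ i j, (ρ : Mat) i j ∈ F₀) →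
          ∃ A : GL (Fin 3) F₀, Matrix.GeneralLinearGroup.map (F₀.subtype : F₀ →+* F) A = ρ := by
        intro ρ hρ
        let A : Matrix (Fin 3) (Fin 3) F₀ := fun i j => ⟨(ρ : Mat) i j, hρ i j⟩
        have hA : (F₀.subtype : F₀ →+* F).mapMatrix A = (ρ : Mat) := rfl
        have hdet : A.det ≠ 0 := fun h0 => Matrix.GeneralLinearGroup.det_ne_zero ρ
          (by rw [← hA, ← RingHom.map_det, h0, map_zero])
        exact ⟨Matrix.GeneralLinearGroup.mkOfDetNeZero A hdet, Units.ext rfl⟩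
      obtain ⟨A₁, hA₁⟩ := lift ρ₁ (hρrat hur hwr hp.uu hp.vv)
      obtain ⟨A₂, hA₂⟩ := lift ρ₂ (hρrat hur hu'r hp.uu hu'u')
      exact ⟨(A₁ ^ i * A₂ ^ j)⁻¹, by rw [map_inv, map_mul, map_pow, map_pow, hA₁, hA₂]⟩
    obtain ⟨A, hA⟩ := hRrat
    intro a' b'
    have ht' : (t : Mat) = d • (((ρ₁ ^ i * ρ₂ ^ j)⁻¹ : GL (Fin 3) F) : Mat) := by
      have := congrArg (fun B => B * (((ρ₁ ^ i * ρ₂ ^ j)⁻¹ : GL (Fin 3) F) : Mat)) hd
      rw [← Units.val_mul, mul_assoc t, mul_inv_cancel_right, Matrix.smul_mul, one_mul] at this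
      exact this
    rw [ht', ← hA, Matrix.smul_apply, smul_eq_mul]
    exact mul_mem (hcube d hd3) ((A : Matrix (Fin 3) (Fin 3) F₀) a' b').2
  -- images of poles
  have hgi := (mem_isoSL.mp (hsu hg)).1
  have hpole : ∀ {z w b : Fin 3 → F}, IsRatVec F₀ z → IsRatVec F₀ w → ∀ hpb : Pair (f := pullForm 3 q P) z w b,
      ∃ (ν : F) (rr : Fin 3 → F), IsRatVec F₀ rr ∧ (g : Mat) *ᵥ b = ν • rr := by
    intro z w b hzr hwr hpb
    have hz0 : z ≠ 0 := fun e => by have := hpb.uv; rw [e, zero_left H.herm] at this; exact zero_ne_one this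
    have hw0 : w ≠ 0 := fun e => by have := hpb.uv; rw [e, zero_right H.herm] at this; exact zero_ne_one this
    have hrat := hconj hzr hwr hz0 hw0 hpb.uu hpb.vv
    set t := g * H.rho hpb.uu hpb.vv * g⁻¹ with ht
    let A : Matrix (Fin 3) (Fin 3) F₀ := fun i j => ⟨(t : Mat) i j, hrat i j⟩
    have hA : (F₀.subtype : F₀ →+* F).mapMatrix A = (t : Mat) := rfl
    have hfix : (t : Mat) *ᵥ ((g : Mat) *ᵥ b) = (g : Mat) *ᵥ b := by
      rw [Matrix.mulVec_mulVec, ← Units.val_mul, ht, inv_mul_cancel_right, Units.val_mul, ← Matrix.mulVec_mulVec,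
        H.rho_fix hpb]
    have hdet : (A - 1).det = 0 := by
      apply (F₀.subtype : F₀ →+* F).injective
      rw [map_zero, RingHom.map_det, map_sub, map_one, hA]
      refine Matrix.exists_mulVec_eq_zero_iff.1 ⟨(g : Mat) *ᵥ b, fun e => hpb.ne (gl_mulVec_injective g
        (show (g : Mat) *ᵥ b = (g : Mat) *ᵥ 0 by rw [Matrix.mulVec_zero, e])), ?_⟩
      rw [Matrix.sub_mulVec, Matrix.one_mulVec, hfix, sub_self]
    obtain ⟨x, hx0, hx⟩ := Matrix.exists_mulVec_eq_zero_iff.2 hdet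
    rw [Matrix.sub_mulVec, Matrix.one_mulVec, sub_eq_zero] at hx
    have hrr : (t : Mat) *ᵥ incV x = incV x := funext fun i => by
      have := congrArg Subtype.val (congrFun hx i)
      simp only [Matrix.mulVec, dotProduct] at this ⊢
      rw [AddSubmonoidClass.coe_finset_sum] at this
      exact this
    obtain ⟨c, hc⟩ := H.rho_pole hs hpb (x := ((g⁻¹ : GL (Fin 3) F) : Mat) *ᵥ incV x) (by
      conv_rhs => rw [← hrr]
      rw [Matrix.mulVec_mulVec, Matrix.mulVec_mulVec, ← Units.val_mul, ← Units.val_mul, ht]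
      congr 2
      group)
    have e : incV x = c • ((g : Mat) *ᵥ b) := by
      rw [← Matrix.mulVec_smul, ← hc, gl_mulVec_inv]
    have hc0 : c ≠ 0 := fun e0 => hx0 (incV_injective (by rw [e, e0, zero_smul, incV_zero]))
    exact ⟨c⁻¹, incV x, incV_rat x, by rw [e, smul_smul, inv_mul_cancel₀ hc0, one_smul]⟩
  obtain ⟨ν₀, r₀, hr₀, e0⟩ := hpole hur hwr hp
  obtain ⟨ν₂, r₂, hr₂, e2⟩ := hpole hur hu'r ha2
  obtain ⟨ν₃, r₃, hr₃, e3⟩ := hpole (isRat_smul hθ hwr) hu'r ha3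
  have hν₀ : ν₀ ≠ 0 := fun e => hp.ne (gl_mulVec_injective g (show (g : Mat) *ᵥ a = (g : Mat) *ᵥ 0 by
    rw [Matrix.mulVec_zero, e0, e, zero_smul]))
  have hlink : ∀ {ν : F} {rr y : Fin 3 → F}, IsRatVec F₀ rr → (g : Mat) *ᵥ y = ν • rr →
      pullForm 3 q P y a = 1 → ν * frobQ hF ν₀ ∈ F₀ := by
    intro ν rr y hrr hy h1
    have := hgi y a
    rw [hy, e0, H.herm.smul_left, smul_right H.herm, h1] at this
    have hne : pullForm 3 q P rr r₀ ≠ 0 := fun e => by rw [e, mul_zero, mul_zero] at this; exact zero_ne_one this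
    have hd := inv_mem (H.rat _ _ hrr hr₀)
    rwa [← eq_inv_of_mul_eq_one_left (show ν * frobQ hF ν₀ * pullForm 3 q P rr r₀ = 1 by linear_combination this)]
      at hd
  have hb0 := hlink hr₀ e0 hh
  have hb2 := hlink hr₂ e2 (by rw [H.herm.add_left, hp.ua, hh, zero_add])
  have hb3 := hlink hr₃ e3 (by rw [H.herm.add_left, H.herm.smul_left, hp.va, hh]; ring)
  have hσ0 : frobQ hF ν₀ ≠ 0 := by simpa using hν₀
  have hq : ∀ {ν : F}, ν * frobQ hF ν₀ ∈ F₀ → ν₀⁻¹ * ν ∈ F₀ := by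
    intro ν h
    have := div_mem h hb0
    rwa [mul_div_mul_right _ _ hσ0, div_eq_inv_mul] at this
  -- the images of the frame
  have gu : IsRatVec F₀ (ν₀⁻¹ • ((g : Mat) *ᵥ u)) := by
    have : ν₀⁻¹ • ((g : Mat) *ᵥ u) = (ν₀⁻¹ * ν₂) • r₂ - (ν₀⁻¹ * ν₀) • r₀ := by
      rw [← smul_smul, ← smul_smul ν₀⁻¹ ν₀, ← e2, ← e0, Matrix.mulVec_add, smul_add, add_sub_cancel_right]
    rw [this]
    exact isRat_sub (isRat_smul (hq hb2) hr₂) (isRat_smul (hq hb0) hr₀)
  have gw : IsRatVec F₀ (ν₀⁻¹ • ((g : Mat) *ᵥ w)) := by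
    have : ν₀⁻¹ • ((g : Mat) *ᵥ w) = θ⁻¹ • ((ν₀⁻¹ * ν₃) • r₃ - (ν₀⁻¹ * ν₀) • r₀) := by
      rw [← smul_smul, ← smul_smul ν₀⁻¹ ν₀, ← e3, ← e0, Matrix.mulVec_add, smul_add, add_sub_cancel_right,
        Matrix.mulVec_smul, smul_comm ν₀⁻¹ θ, smul_smul θ⁻¹, inv_mul_cancel₀ hθ0, one_smul]
    rw [this]
    exact isRat_smul (inv_mem hθ) (isRat_sub (isRat_smul (hq hb3) hr₃) (isRat_smul (hq hb0) hr₀))
  have ga : IsRatVec F₀ (ν₀⁻¹ • ((g : Mat) *ᵥ a)) := by
    rw [e0, smul_smul]; exact isRat_smul (hq hb0) hr₀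
  refine mem_subGroupF.mpr ⟨ν₀⁻¹, inv_ne_zero hν₀, fun i j => ?_⟩
  obtain ⟨k', l', m', hk', hl', hm', ej⟩ := H.frame_coords hur hwr har hp (isRat_single (F₀ := F₀) j)
  have e : ν₀⁻¹ * (g : Mat) i j = (ν₀⁻¹ • ((g : Mat) *ᵥ Pi.single j 1)) i := by
    rw [Matrix.mulVec_single_one]; rfl
  rw [e, ej, Matrix.mulVec_add, Matrix.mulVec_add, Matrix.mulVec_smul, Matrix.mulVec_smul, Matrix.mulVec_smul,
    smul_add, smul_add, smul_comm _ k', smul_comm _ l', smul_comm _ m']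
  exact isRat_add (isRat_add (isRat_smul hk' gu) (isRat_smul hl' gw)) (isRat_smul hm' ga) i

end Cfsg.Agent.H5.SUThree
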