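import Cfsg.Agent.H5.SUThree.Lines
import Cfsg.Agent.H5.SUThree.QTwo
import Cfsg.Prelude.Def_GeometricClasses

/-!
# Odd prime index subfield subgroups of `SU₃(q)` are maximal (conjunct five of the list)
-/

set_option autoImplicit false
set_option linter.unusedSectionVars false

namespace Cfsg.Agent.H5.SUThree

open scoped Matrix
open Cfsg.Agent.H98 Cfsg.Agent.H98.Herm Cfsg.Agent.H1.SUThree

variable {F : Type*} [Field F] [Fintype F] {q : ℕ}

local notation "Mat" => Matrix (Fin 3) (Fin 3) F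

variable {hF : Fintype.card F = q ^ 2} {F₀ : Subfield F} {r : ℕ} {P : GL (Fin 3) F} (H : OddRat3 hF F₀ r P)

include H in
/-- The subfield subgroup is maximal. -/
theorem OddRat3.maximal (hq : 3 ≤ q) :
    Cfsg.Geo.IsMaximalIn (isoSL (pullForm 3 q P)) (subGroupF (Fin 3) F₀ ⊓ isoSL (pullForm 3 q P)) := by
  classical
  refine isMaximalIn_of inf_le_right ?_ fun M h1 h2 g hgM hgH => ?_
  · obtain ⟨u, w, a, hur, hwr, -, hp⟩ := H.exists_frame
    obtain ⟨y, hy, hyn⟩ := H.exists_fixed_new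
    obtain ⟨ζ, hζF, hζ0, hζ⟩ := H.exists_skew₀
    have hd : frobQ hF (ζ * y) = -(ζ * y) := by rw [map_mul, hζ, hy, neg_mul]
    have hu0 : u ≠ 0 := fun h => by have := hp.uv; rw [h, zero_left H.herm] at this; exact zero_ne_one this
    refine ⟨uT H.herm hp.uu (ζ * y), ⟨fun a b => uT_iso H.herm hp.uu hd a b, transGL_mem_sl _ _ _⟩, fun hm => hyn ?_⟩
    have hT := rational_of_fix hm.1 hur hu0 (by rw [uT_mulVec, hp.uu, mul_zero, zero_smul, add_zero])
    have hr := isRat_sub (mulVec_rat hT hwr) hwr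
    rw [uT_mulVec, add_sub_cancel_left, hp.vu H.herm, mul_one] at hr
    obtain ⟨p, hp'⟩ := Function.ne_iff.mp hu0
    have := mul_mem (mul_mem (hr p) (inv_mem (hur p))) (inv_mem hζF)
    rwa [Pi.smul_apply, smul_eq_mul, mul_assoc (ζ * y), mul_inv_cancel₀ hp', mul_one, mul_comm ζ y, mul_assoc,
      mul_inv_cancel₀ hζ0, mul_one] at this
  obtain ⟨ζ, hζF, hζ0, hζ⟩ := H.exists_skew₀
  by_cases hns : ∀ z, IsRatVec F₀ z → z ≠ 0 → ∀ hz : pullForm 3 q P z z = 0, ∀ x ∈ H.par M ζ hz, x ∈ F₀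
  · exfalso
    refine hgH ⟨?_, h2 hgM⟩
    by_cases h3 : ∃ t ∈ F₀, frobQ hF t = t ∧ t ≠ 0 ∧ t ≠ 1
    · exact H.mem_of_noJump h1 h2 hζF hζ0 hζ hns h3 hgM
    · push Not at h3
      have hs : IsSmall hF F₀ := fun t ht htσ => or_iff_not_imp_left.2 (h3 t ht htσ)
      obtain rfl := (H.small_facts hs).2.1 ζ hζF hζ0 hζ
      exact H.mem_of_small hs h1 h2 hns hgM
  · push Not at hns
    obtain ⟨z, hzr, hz0, hz, τ, hτ, hτn⟩ := hns
    exact le_of_eq (H.top_of_jump hq h1 h2 hζF hζ0 hζ hzr hz0 hτ hτn).symm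

/-- Conjunct five of the list for `SU₃(q)`. -/
theorem su_three_subfield_odd_maximal {F : Type*} [Field F] [Fintype F] (q : ℕ) (hF : Fintype.card F = q ^ 2)
    (hq : 3 ≤ q) :
    ∀ (F₀ : Subfield F) (r : ℕ) (P : Matrix.GeneralLinearGroup (Fin 3) F), r.Prime → Odd r → Fintype.card F = Nat.card F₀ ^ r → Cfsg.Geo.IsFormRationalStructure (Cfsg.hermForm 3 F q) F₀ 1 P → Cfsg.Geo.IsMaximalIn (Cfsg.GU 3 F q ⊓ Cfsg.Geo.specialLinear (Fin 3) F) (Cfsg.Geo.subfieldSubgroup F₀ P ⊓ (Cfsg.GU 3 F q ⊓ Cfsg.Geo.specialLinear (Fin 3) F)) := by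
  intro F₀ r P hr hro hcard hP
  refine Cfsg.Agent.H98.Herm.su_subfield_of_pull F₀ P ?_
  exact OddRat3.maximal (hF := hF) (r := r) ⟨hr, hro, hcard,
    fun u v hu hv => by simpa [Cfsg.Agent.H98.Herm.pullForm] using (hP u v hu hv)⟩ hq

end Cfsg.Agent.H5.SUThree
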